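import Cfsg.Agent.H21.DSDefs
import Cfsg.Agent.H7.PBasic

/-!
Project DS: the generic element of the augmentation ideal on a permutation module.
-/

set_option autoImplicit false

namespace Cfsg.Agent.H84.DsDer

open Cfsg.Agent.H21.DS MulAction

universe u

theorem exists_tau {p : ℕ} [hp : Fact p.Prime] {A : Type u} [CommGroup A] [Finite A]
    (hA : IsPGroup p A) (Q : Subgroup A) :
    ∃ τ : A →* Multiplicative (ZMod p), Q ≤ τ.ker ∧ (Q ≠ ⊤ → τ ≠ 1) := by
  rcases eq_top_or_exists_le_coatom Q with h | ⟨M, hM, hQ⟩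
  · exact ⟨1, fun _ _ => rfl, fun h' => (h' h).elim⟩
  have e : A ⧸ M ≃* Multiplicative (ZMod p) :=
    mulEquivOfPrimeCardEq (p := p) (H7.index_of_isCoatom hA hM) (by simp)
  have hk : (e.toMonoidHom.comp (QuotientGroup.mk' M)).ker = M := by
    rw [← MonoidHom.comap_ker, (MonoidHom.ker_eq_bot_iff _).2 e.injective, MonoidHom.comap_bot,
      QuotientGroup.ker_mk']
  refine ⟨_, hk.symm ▸ hQ, fun _ h => hM.1 ?_⟩
  rw [← hk, h, MonoidHom.ker_one]

theorem stab_smul {A : Type u} [CommGroup A] {X : Type u} [MulAction A X] (g : A) (x : X) :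
    stabilizer A (g • x) = stabilizer A x := by
  ext a
  rw [mem_stabilizer_iff, mem_stabilizer_iff, smul_comm, smul_left_cancel_iff]

/-- Coordinates along the orbits. -/
theorem exists_coord {p : ℕ} [hp : Fact p.Prime] {A : Type u} [CommGroup A] [Finite A]
    (hA : IsPGroup p A) (X : Type u) [MulAction A X] :
    ∃ (τ : X → A →* Multiplicative (ZMod p)) (t : X → ZMod p), (∀ (g : A) x, τ (g • x) = τ x) ∧
      (∀ (g : A) x, t (g • x) = (τ x g).toAdd + t x) ∧
      (∀ x, (∀ g : A, g • x = x) → τ x = 1) ∧ ∀ x, (¬ ∀ g : A, g • x = x) → τ x ≠ 1 := by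
  choose T h1 h2 using exists_tau hA
  have hr : ∀ x : X, ∃ g : A, g • (Quotient.mk (orbitRel A X) x).out = x := fun x =>
    (orbitRel A X).symm (Quotient.mk_out (s := orbitRel A X) x)
  choose γ hγ using hr
  refine ⟨fun x => T (stabilizer A x), fun x => (T (stabilizer A x) (γ x)).toAdd,
    fun g x => by simp only [stab_smul], fun g x => ?_, fun x hx => ?_, fun x hx => h2 _ fun h => ?_⟩
  · have e : Quotient.mk (orbitRel A X) (g • x) = Quotient.mk (orbitRel A X) x :=
      Quotient.sound ⟨g, rfl⟩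
    have h3 := hγ (g • x)
    rw [e] at h3
    have h4 : (g * γ x)⁻¹ * γ (g • x) ∈ stabilizer A x := by
      rw [← hγ x, stab_smul, hγ x, mem_stabilizer_iff, mul_smul, h3, inv_smul_eq_iff, mul_smul,
        hγ x]
    have h5 := h1 _ h4
    rw [MonoidHom.mem_ker, map_mul, map_inv, inv_mul_eq_one, map_mul] at h5
    simp only [stab_smul, ← h5, toAdd_mul]
  · exact MonoidHom.ext fun g => h1 _ (hx g)
  · exact hx fun g => (h.ge (Subgroup.mem_top g) : g ∈ stabilizer A x)

section Op

variable {K : Type u} [Field K] {A : Type u} [CommGroup A] {X : Type u} [MulAction A X]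

variable (K X) in
/-- The permutation operators. -/
def pm : A →* Module.End K (X → K) where
  toFun g := LinearMap.funLeft K K fun x => g⁻¹ • x
  map_one' := by ext f x; simp
  map_mul' g h := LinearMap.ext fun f => funext fun x => by
    simp [LinearMap.funLeft_apply, mul_smul]

/-- The multiplication operators. -/
def ml (φ : X → K) : Module.End K (X → K) := LinearMap.mulLeft K φ

theorem pm_apply (g : A) (f : X → K) (x : X) : pm K X g f x = f (g⁻¹ • x) := rfl

theorem ml_apply (φ f : X → K) (x : X) : ml φ f x = φ x * f x := rfl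

theorem ml_ml (φ ψ : X → K) : Commute (ml φ) (ml ψ) :=
  LinearMap.ext fun f => funext fun x => mul_left_comm _ _ _

theorem pm_pm (g h : A) : Commute (pm K X g) (pm K X h) := (Commute.all g h).map _

theorem pm_ml {φ : X → K} (hφ : ∀ (g : A) x, φ (g • x) = φ x) (g : A) :
    Commute (pm K X g) (ml φ) :=
  LinearMap.ext fun f => funext fun x => by
    change φ (g⁻¹ • x) * f (g⁻¹ • x) = φ x * f (g⁻¹ • x)
    rw [hφ]

theorem isUnit_ml {φ : X → K} (hφ : ∀ x, φ x ≠ 0) : IsUnit (ml φ) :=
  ⟨⟨ml φ, ml φ⁻¹, LinearMap.ext fun f => funext fun x => mul_inv_cancel_left₀ (hφ x) _,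
    LinearMap.ext fun f => funext fun x => inv_mul_cancel_left₀ (hφ x) _⟩, rfl⟩

theorem nil_pm [Nonempty X] {p : ℕ} [Fact p.Prime] [CharP K p] (hA : IsPGroup p A) (g : A) :
    IsNilpotent (pm K X g - 1) := by
  have : CharP (Module.End K (X → K)) p :=
    charP_of_injective_algebraMap (algebraMap K _).injective p
  obtain ⟨k, hk⟩ := hA g
  exact ⟨p ^ k, by
    rw [sub_pow_char_pow_of_commute _ _ (Commute.one_right _), ← map_pow, hk, map_one, one_pow,
      sub_self]⟩

end Op

theorem der : DerStmt.{u} := by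
  intro K _ p _ _ A _ _ hA X _ _ y hy f hf
  classical
  rcases isEmpty_or_nonempty X with hX | hX
  · exact ⟨0, fun x => hX.elim x⟩
  obtain ⟨τ, t0, hτ, ht0, hfix, hnf⟩ := exists_coord hA X
  let ι : ZMod p →+* K := ZMod.castHom dvd_rfl K
  let m : A → X → K := fun g x => y g * ι (τ x g).toAdd
  let t : X → K := fun x => ι (t0 x)
  let e : X → K := fun x => if ∀ g : A, g • x = x then 1 else 0
  let d : X → K := fun x => ∑ g, m g x + e x
  have hfx : ∀ (a : A) (x : X), (∀ g : A, g • a • x = a • x) ↔ ∀ g : A, g • x = x := fun a x =>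
    forall_congr' fun g => by rw [smul_comm, smul_left_cancel_iff]
  have hm : ∀ g (a : A) x, m g (a • x) = m g x := fun g a x => by simp only [m, hτ]
  have he : ∀ (a : A) x, e (a • x) = e x := fun a x => by simp only [e, hfx]
  have hd : ∀ (a : A) x, d (a • x) = d x := fun a x => by simp only [d, hm, he]
  have hm0 : ∀ g x, (∀ g : A, g • x = x) → m g x = 0 := fun g x hx => by simp [m, hfix x hx]
  have hd0 : ∀ x, d x ≠ 0 := fun x => by
    by_cases hx : ∀ g : A, g • x = x
    · simp [d, hm0 _ x hx, e, hx]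
    · simp only [d, e, if_neg hx, add_zero]
      exact hy _ (hnf x hx)
  let Θ : Module.End K (X → K) := ∑ g, y g • (pm K X g - 1)
  let ν : Module.End K (X → K) := ∑ g, ml (m g) * (pm K X g - 1)
  have hΘ : ∀ F x, Θ F x = ∑ g, y g * (F (g⁻¹ • x) - F x) := fun F x => by
    simp [Θ, LinearMap.sum_apply, Finset.sum_apply, pm_apply]
  have hν : ∀ F x, ν F x = ∑ g, m g x * (F (g⁻¹ • x) - F x) := fun F x => by
    simp [ν, LinearMap.sum_apply, Finset.sum_apply, pm_apply, ml_apply, mul_sub]
  have c1 : ∀ {φ : X → K}, (∀ (g : A) x, φ (g • x) = φ x) → ∀ g : A,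
      Commute (ml φ) (pm K X g - 1) := fun hφ g =>
    (pm_ml hφ g).symm.sub_right (Commute.one_right _)
  have c2 : ∀ g h : A, Commute (pm K X g - 1) (pm K X h - 1) := fun g h =>
    ((pm_pm g h).sub_right (Commute.one_right _)).sub_left (Commute.one_left _)
  have hnil : IsNilpotent ν := Commute.isNilpotent_sum
    (fun g _ => (c1 (hm g) g).isNilpotent_mul_left (nil_pm hA g)) fun g h _ _ =>
      ((ml_ml _ _).mul_right (c1 (hm g) h)).mul_left ((c1 (hm h) g).symm.mul_right (c2 g h))
  have hu : IsUnit (ml d + ν) := hnil.isUnit_add_left_of_commute (isUnit_ml hd0)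
    (Commute.sum_left _ _ _ fun g _ => (ml_ml _ _).mul_left (c1 hd g).symm)
  have hc : Commute (ml d + ν) Θ := Commute.sum_right _ _ _ fun g _ =>
    ((c1 hd g).add_left (Commute.sum_left _ _ _ fun h _ =>
      (c1 (hm h) g).mul_left (c2 h g))).smul_right _
  have key : (ml d + ν) (f - e * f) = Θ (-(t * f)) := by
    funext x
    rw [LinearMap.add_apply, Pi.add_apply, ml_apply, hν, hΘ]
    have ht : ∀ g : A, t (g⁻¹ • x) = t x - ι (τ x g).toAdd := fun g => by
      simp only [t, ht0, map_inv, toAdd_inv, map_add, map_neg]; ring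
    have h0 := hf x
    simp only [Pi.sub_apply, Pi.mul_apply, Pi.neg_apply, he, ht]
    by_cases hx : ∀ g : A, g • x = x
    · simp [e, hx, hfix x hx]
    · have e0 : e x = 0 := if_neg hx
      simp only [d, e0, add_zero, zero_mul, sub_zero, Finset.sum_mul, ← Finset.sum_add_distrib]
      rw [← sub_eq_zero, ← Finset.sum_sub_distrib, ← mul_zero (t x), ← h0, Finset.mul_sum]
      exact Finset.sum_congr rfl fun g _ => by simp only [m]; ring
  refine ⟨(↑hu.unit⁻¹ : Module.End K (X → K)) (-(t * f)), fun x hx => ?_⟩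
  have h1 : Commute (↑hu.unit⁻¹ : Module.End K (X → K)) Θ := Commute.units_inv_left hc
  rw [← hΘ, ← Module.End.mul_apply, ← h1.eq, Module.End.mul_apply, ← key, ← Module.End.mul_apply,
    IsUnit.val_inv_mul]
  simp [e, hx]

end Cfsg.Agent.H84.DsDer
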