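import Cfsg.Agent.H84.JMain

/-!
The case `C₂ × S₄`: the central involutions lie outside `O²(G)`.
-/

set_option autoImplicit false
set_option linter.unusedSectionVars false

namespace Cfsg.Agent.H84

open Cfsg Cfsg.Agent.H98 Subgroup
open scoped commutatorElement

variable {G : Type*} [Group G] [Finite G]

namespace Pair

variable {T K₁ L₁ K₂ L₂ : Subgroup G} (p : Pair T K₁ L₁ K₂ L₂)
include p

theorem L_le_normalizer : L₁ ≤ normalizer (K₁ : Set G) :=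
  p.L_eq.le.trans (sup_le le_normalizer p.norm)

theorem normalizer_le {U : Subgroup G} (h1 : wOf K₁ ≤ U) (h2 : U ≤ pCoreOf 2 L₁) :
    normalizer (U : Set G) = L₁ := by
  rcases h1.eq_or_lt with e | hlt
  · exact e ▸ p.g₁.max.2 _ (twoLocal_wOf p.g₁.jc)
      (p.L_le_normalizer.trans (normalizer_le_normalizer_wOf K₁))
  · have := H53.mul_card_le_of_lt ((isPGroup_pCoreOf 2 L₁).to_le h2) hlt
    rw [jc_card p.g₁.jc] at this
    rw [H53.eq_of_le_of_card_le h2 (p.card_le.trans this), p.g₁.normalizer_pCore]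

theorem le_Q {U : Subgroup G} (hU : IsPGroup 2 U) (hUL : U ≤ L₁)
    (hn : K₁ ≤ normalizer (U : Set G)) : U ≤ pCoreOf 2 L₁ := by
  obtain ⟨g, hg, hle⟩ := p.g₁.syl.exists_conj_le hUL hU
  rw [p.L_eq] at hg
  obtain ⟨t, ht, k, hk, rfl⟩ := (H4.mem_sup_iff_of_le_normalizer' p.norm).mp hg
  rw [← map_conj_map_conj, map_conj_eq_iff_mem_normalizer.mpr (hn hk), cj_le_iff_le_cj_inv,
    cj, map_conj_eq_of_mem (inv_mem ht)] at hle
  rw [p.L_eq, p.g₁.pCore_eq p.z p.norm]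
  refine le_inf (fun u hu => ⟨p.norm (hle hu), fun x hx => ?_⟩) hle
  exact le_pCoreOf inf_le_left (inf_le_normalizer_inf le_normalizer hn) (hU.to_le inf_le_right)
    (mem_inf.mpr ⟨C3.comm_mem (p.norm (hle hu)) hx,
      mul_mem (conj_mem_of_le_normalizer hn hx hu) (inv_mem hu)⟩)

theorem le_of_K_le {X : Subgroup G} (hX : IsTwoLocal X) (hK : K₁ ≤ X) : X ≤ L₁ := by
  have hn := hK.trans (le_normalizer_pCoreOf 2 X)
  have hW := (wOf_le K₁).trans (pCoreOf_le 2 K₁)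
  have hY := isPGroup_sup (isPGroup_pCoreOf 2 X) (H51.isEA_isPGroup (isEA_wOf K₁)) (hW.trans hn)
  have h1 : pCoreOf 2 X ⊔ wOf K₁ ≤ pCoreOf 2 L₁ := by
    by_contra hne
    have h2 := H83.lt_inf_normalizer hY (inf_lt_left.mpr hne)
    rw [p.normalizer_le (le_inf le_sup_right p.W_le) inf_le_right] at h2
    exact h2.not_ge (le_inf inf_le_left (p.le_Q (hY.to_le inf_le_left) inf_le_right
      (inf_le_normalizer_inf (le_normalizer_sup hn
        (le_normalizer.trans (normalizer_le_normalizer_wOf K₁))) (p.g₁.le.trans le_normalizer))))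
  have h2 := le_sup_left.trans h1
  rw [← p.normalizer_le (((p.W_le.trans (H51.isMulCommutative_iff_le_centralizer.mp p.isEA.1)).trans
    (centralizer_anti h2)).trans (p.z.char hX)) h2]
  exact le_normalizer_pCoreOf 2 X

theorem max_local {H : Subgroup G} (hK : K₁ ≤ H) : IsMaximalTwoLocal (L₁.subgroupOf H) := by
  have hW := ((wOf_le K₁).trans (pCoreOf_le 2 K₁)).trans hK
  refine ⟨⟨(wOf K₁).subgroupOf H, (H51.isEA_isPGroup (isEA_wOf K₁)).comap_subtype, fun e => ?_,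
    by rw [← subgroupOf_normalizer_eq hW, p.normalizer_le le_rfl p.W_le]⟩, ?_⟩
  · rw [subgroupOf_eq_bot, disjoint_iff, inf_eq_left.mpr hW] at e
    exact jc_wOf_ne_bot p.g₁.jc e
  · rintro _ ⟨U, hU, hU1, rfl⟩ hle
    have e : (U.map H.subtype).subgroupOf H = U := H83.map_subtype_subgroupOf U
    rw [← e, ← subgroupOf_normalizer_eq (map_subtype_le U)] at hle ⊢
    refine le_antisymm (comap_mono (p.le_of_K_le ⟨_, hU.map _, ?_, rfl⟩ fun k hk => ?_)) hle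
    · rwa [Ne, map_eq_bot_iff_of_injective _ H.subtype_injective]
    · exact hle (x := ⟨k, hK hk⟩) (p.g₁.le hk)

theorem le_sup : T ≤ pCoreOf 2 L₁ ⊔ pCoreOf 2 L₂ := fun t ht => by
  by_cases h : t ∈ pCoreOf 2 L₁
  · exact mem_sup_left h
  · obtain ⟨b, hb, hb'⟩ := SetLike.not_le_iff_exists.mp p.not_le
    exact (mul_mem_cancel_right (mem_sup_right hb)).mp
      (mem_sup_left (p.mul_mem_Q ht (p.symm.Q_le hb) h hb'))

theorem inf_le_centralizer : pCoreOf 2 L₁ ⊓ pCoreOf 2 L₂ ≤ centralizer (T : Set G) :=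
  le_centralizer_comm.mp (p.le_sup.trans (sup_le
    ((H51.isMulCommutative_iff_le_centralizer.mp p.isEA.1).trans (centralizer_anti inf_le_left))
    ((H51.isMulCommutative_iff_le_centralizer.mp p.symm.isEA.1).trans
      (centralizer_anti inf_le_right))))

theorem mem_Q_of_comm {t a : G} (ht : t ∈ T) (ha : a ∈ pCoreOf 2 L₁) (ha' : a ∉ pCoreOf 2 L₂)
    (h : a * t = t * a) : t ∈ pCoreOf 2 L₁ := by
  refine p.char fun y hy => ?_
  by_cases hy' : y ∈ pCoreOf 2 L₂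
  · exact (p.inf_le_centralizer ⟨hy, hy'⟩ t ht).symm
  · have := p.inf_le_centralizer
      ⟨mul_mem hy ha, p.symm.mul_mem_Q (p.Q_le hy) (p.Q_le ha) hy' ha'⟩ t ht
    rwa [mul_assoc y, h, ← mul_assoc, ← mul_assoc y, mul_left_inj, eq_comm] at this

theorem comm_mem_Q {a b : G} (ha : a ∈ T) (hb : b ∈ T) : ⁅a, b⁆ ∈ pCoreOf 2 L₁ := by
  have hn := le_normalizer_pCoreOf 2 L₁ (p.g₁.syl.le ha)
  by_cases h : b ∈ pCoreOf 2 L₁
  · exact mul_mem (conj_mem_of_mem_normalizer hn h) (inv_mem h)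
  · exact p.mul_mem_Q (mul_mem (mul_mem ha hb) (inv_mem ha)) (inv_mem hb)
      (fun e => h (by simpa [mul_assoc] using conj_mem_of_mem_normalizer' hn e))
      (by rwa [inv_mem_iff])

theorem mul_self {a : G} (ha : a ∈ pCoreOf 2 L₁) : a * a = 1 := by
  rw [← sq]; exact p.isEA.2 a ha

theorem cj_W {u : G} (hu : u ∈ normalizer (T : Set G)) (huL : u ∉ L₁) :
    cj u (wOf K₁) = wOf K₂ := by
  have h1 : cj u L₁ = L₂ := by
    rw [← p.g₁.normalizer_pCore, cj, map_conj_normalizer, ← cj, p.cj_Q hu huL,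
      p.g₂.normalizer_pCore]
  have h2 := congrArg (resOf 2) h1
  rw [← cj_resOf, p.L_eq, p.symm.L_eq, resOf_sup p.g₁.syl.isPGroup p.norm,
    resOf_sup p.g₁.syl.isPGroup p.symm.norm, (jc_c3 p.g₁.jc).res, (jc_c3 p.g₂.jc).res] at h2
  rw [cj_wOf, h2]

end Pair

/-- The case `C₂ × S₄` with the two central involutions. -/
structure Big (T K₁ L₁ K₂ L₂ : Subgroup G) (c d : G) : Prop where
  p : Pair T K₁ L₁ K₂ L₂
  card₁ : Nat.card L₁ = 48
  card₂ : Nat.card L₂ = 48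
  c1 : c ≠ 1
  c2 : c * c = 1
  cc : c ∈ centralizer (L₁ : Set G)
  d1 : d ≠ 1
  d2 : d * d = 1
  dc : d ∈ centralizer (L₂ : Set G)

namespace Big

variable {T K₁ L₁ K₂ L₂ : Subgroup G} {c d : G} (b : Big T K₁ L₁ K₂ L₂ c d)
include b

theorem symm : Big T K₂ L₂ K₁ L₁ d c :=
  ⟨b.p.symm, b.card₂, b.card₁, b.d1, b.d2, b.dc, b.c1, b.c2, b.cc⟩

theorem facts : Nat.card (pCoreOf 2 L₁) = 8 ∧ c ∉ wOf K₁ ∧ pCoreOf 2 L₁ = wOf K₁ ⊔ zpowers c := by
  have := b.p.pCore_eq_sup (b.p.L_eq ▸ b.card₁) b.c1 (b.p.L_eq ▸ b.cc)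
  rwa [← b.p.L_eq] at this

theorem cT : c ∈ centralizer (T : Set G) := centralizer_anti b.p.g₁.syl.le b.cc

theorem c_mem : c ∈ pCoreOf 2 L₁ ⊓ pCoreOf 2 L₂ :=
  ⟨b.p.char (centralizer_anti b.p.Q_le b.cT), b.p.symm.char (centralizer_anti b.p.symm.Q_le b.cT)⟩

theorem cent_le : centralizer {c} ≤ L₁ :=
  b.p.g₁.cent_le (b.p.mem_om b.c2 b.cT) b.c1 (centralizer_anti b.p.g₁.le b.cc)

theorem comm_mem_W {q t : G} (hq : q ∈ pCoreOf 2 L₁) (ht : t ∈ T) : ⁅q, t⁆ ∈ wOf K₁ := by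
  have hn := b.p.L_le_normalizer.trans (normalizer_le_normalizer_wOf K₁)
  rw [b.facts.2.2] at hq
  exact commutator_sup_le (commutator_le_left_of_le_normalizer (b.p.g₁.syl.le.trans hn))
    (commutator_le_of_le_centralizer (zpowers_le.mpr b.cT)) le_normalizer
    (zpowers_le.mpr (hn (pCoreOf_le 2 _ b.c_mem.1))) (commutator_mem_commutator hq ht)

theorem not_sq (y : G) : y * y ≠ c := fun e => by
  have hy : y ∈ L₁ := b.cent_le (mem_centralizer_singleton_iff.mpr (by rw [← e, mul_assoc]))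
  obtain ⟨l, hl, hle⟩ := b.p.g₁.syl.exists_conj_le (zpowers_le.mpr hy)
    (isPGroup_zpowers_of_pow_mem (isPGroup_pCoreOf 2 L₁) (k := 1)
      (by rw [pow_one, sq, e]; exact b.c_mem.1))
  have ht := hle (conj_mem_map_conj (mem_zpowers y))
  have e' : l * y * l⁻¹ * (l * y * l⁻¹) = c := by
    rw [← mul_inv_eq_iff_eq_mul.mpr (b.cc l hl), ← e]; group
  generalize l * y * l⁻¹ = t at ht e'
  by_cases h : t ∈ pCoreOf 2 L₁
  · exact b.c1 (e' ▸ b.p.mul_self h)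
  · obtain ⟨a, ha, ha'⟩ := SetLike.not_le_iff_exists.mp b.p.not_le
    have h1 := b.p.mul_mem_Q ht (b.p.symm.Q_le ha) h ha'
    have h2 := b.comm_mem_W h1 (b.p.symm.Q_le ha)
    rw [commutatorElement_def, inv_eq_of_mul_eq_one_right (b.p.mul_self h1),
      inv_eq_of_mul_eq_one_right (b.p.symm.mul_self ha), mul_assoc t a a, b.p.symm.mul_self ha,
      mul_one, mul_assoc, mul_assoc t a a, b.p.symm.mul_self ha, mul_one, e'] at h2
    exact b.facts.2.1 h2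

theorem comm_ne_one {a t : G} (ha : a ∈ pCoreOf 2 L₁) (ha' : a ∉ pCoreOf 2 L₂) (ht : t ∈ T)
    (ht' : t ∉ pCoreOf 2 L₁) : ⁅a, t⁆ ≠ 1 := fun e =>
  ht' (b.p.mem_Q_of_comm ht ha ha' (commutatorElement_eq_one_iff_mul_comm.mp e))

theorem exists_z : ∃ y : G, y * y ∈ wOf K₁ ⊓ wOf K₂ ∧ y * y ≠ 1 := by
  obtain ⟨a, ha, ha'⟩ := SetLike.not_le_iff_exists.mp b.p.symm.not_le
  obtain ⟨e, he, he'⟩ := SetLike.not_le_iff_exists.mp b.p.not_le
  have : a * e * (a * e) = ⁅a, e⁆ := by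
    rw [commutatorElement_def, inv_eq_of_mul_eq_one_right (b.p.mul_self ha),
      inv_eq_of_mul_eq_one_right (b.p.symm.mul_self he), mul_assoc (a * e)]
  refine ⟨a * e, this ▸ mem_inf.mpr ⟨b.comm_mem_W ha (b.p.symm.Q_le he), ?_⟩,
    this ▸ b.comm_ne_one ha ha' (b.p.symm.Q_le he) he'⟩
  rw [← commutatorElement_inv]
  exact inv_mem (b.symm.comm_mem_W he (b.p.Q_le ha))

theorem exists_sq {w : G} (hw : w ∈ wOf K₁) : ∃ y : G, y * y = w := by
  by_cases hw1 : w = 1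
  · exact ⟨1, by rw [hw1, mul_one]⟩
  obtain ⟨y, h1, h2⟩ := b.exists_z
  obtain ⟨k, -, e⟩ := (jc_c3 b.p.g₁.jc).exists_conj (jc_card b.p.g₁.jc) h1.1 hw h2 hw1
  exact ⟨k * y * k⁻¹, by rw [← e]; group⟩

theorem W_not_le : ¬ wOf K₂ ≤ pCoreOf 2 L₁ := fun e => b.p.not_le (by
  rw [b.symm.facts.2.2]
  exact sup_le e (zpowers_le.mpr b.symm.c_mem.2))

theorem R_le : wOf K₁ ⊔ wOf K₂ ≤ T :=
  sup_le (b.p.W_le.trans b.p.Q_le) (b.p.symm.W_le.trans b.p.symm.Q_le)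

theorem c_not_mem : c ∉ wOf K₁ ⊔ wOf K₂ := fun e => by
  have h1 := H53.card_inf_mul_card_sup ((b.p.symm.W_le.trans b.p.symm.Q_le).trans
    (b.p.norm.trans (normalizer_le_normalizer_wOf K₁)))
  obtain ⟨y, h2, h3⟩ := b.exists_z
  have h4 := (one_lt_card_iff_ne_bot _).mpr fun e => h3 (mem_bot.mp (e.le h2))
  rw [jc_card b.p.g₁.jc, jc_card b.p.g₂.jc] at h1
  refine b.W_not_le (le_sup_right.trans 
    (H53.eq_of_le_of_card_le (H := pCoreOf 2 L₁) (K := wOf K₁ ⊔ wOf K₂) ?_ ?_).ge)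
  · rw [b.facts.2.2]
    exact sup_le le_sup_left (zpowers_le.mpr e)
  · rw [b.facts.1]
    nlinarith

theorem mem_or {x : G} (hx : x ∈ T) : x ∈ wOf K₁ ⊔ wOf K₂ ∨ x * c ∈ wOf K₁ ⊔ wOf K₂ := by
  have hp := b.p.g₁.syl.isPGroup
  have h1 := H53.mul_card_le_of_lt (hp.to_le b.R_le) (lt_of_le_of_ne le_sup_left
    fun e => b.W_not_le ((le_sup_right.trans e.ge).trans b.p.W_le))
  have h2 : wOf K₁ ⊔ wOf K₂ ⊔ zpowers c ≤ T := sup_le b.R_le (zpowers_le.mpr (b.p.Q_le b.c_mem.1))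
  have h3 := H53.mul_card_le_of_lt (hp.to_le h2) (lt_of_le_of_ne le_sup_left
    fun e => b.c_not_mem (e ▸ mem_sup_right (mem_zpowers c)))
  have h4 := b.p.card_T
  rw [jc_card b.p.g₁.jc] at h1
  rw [b.facts.1] at h4
  rw [← H53.eq_of_le_of_card_le h2 (by omega)] at hx
  exact mem_or_mul_mem_of_mem_sup (centralizer_le_normalizer' _ (centralizer_anti b.R_le b.cT))
    (b.c2 ▸ one_mem _) hx

theorem mem_W {x : G} (hx : x ∈ wOf K₁ ⊔ wOf K₂) (h : x ∈ pCoreOf 2 L₁) : x ∈ wOf K₁ := by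
  rw [b.facts.2.2] at h
  refine (mem_or_mul_mem_of_mem_sup (centralizer_le_normalizer' _ (centralizer_anti
    (le_sup_left.trans b.R_le) b.cT)) (b.c2 ▸ one_mem _) h).resolve_right fun e => ?_
  exact b.c_not_mem ((mul_mem_cancel_left hx).mp (mem_sup_left e))

theorem conj_not_mem (g : G) : g * c * g⁻¹ ∉ wOf K₁ ⊔ wOf K₂ := fun hx => by
  have h1 : ∃ y, y * y = g * c * g⁻¹ := by
    rcases b.p.mem_or (b.R_le hx) (by
      calc g * c * g⁻¹ * (g * c * g⁻¹) = g * (c * c) * g⁻¹ := by group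
        _ = 1 := by rw [b.c2]; group) with h | h
    · exact b.exists_sq (b.mem_W hx h)
    · exact b.symm.exists_sq (b.symm.mem_W (sup_comm (wOf K₁) _ ▸ hx) h)
  obtain ⟨y, hy⟩ := h1
  exact b.not_sq (g⁻¹ * y * g) (by
    calc g⁻¹ * y * g * (g⁻¹ * y * g) = g⁻¹ * (y * y) * g := by group
      _ = c := by rw [hy]; group)

theorem eq_of_mem {x y : G} (hx : x ∈ wOf K₁) (hx' : x ∈ pCoreOf 2 L₂) (hy : y ∈ wOf K₁)
    (hy' : y ∈ pCoreOf 2 L₂) (hx1 : x ≠ 1) (hy1 : y ≠ 1) : x = y :=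
  jc_eq_of_fixed b.p.g₁.jc hx hy hx1 hy1
    (centralizer_anti (JJ_le T) (b.p.inf_le_centralizer ⟨b.p.W_le hx, hx'⟩))
    (centralizer_anti (JJ_le T) (b.p.inf_le_centralizer ⟨b.p.W_le hy, hy'⟩))

section Outer

variable {u : G} (hu : u ∈ normalizer (T : Set G)) (h1 : u ∉ L₁) (h2 : u ∉ L₂)
include hu h1 h2

theorem norm_R : u ∈ normalizer ((wOf K₁ ⊔ wOf K₂ : Subgroup G) : Set G) :=
  mem_normalizer_of_cj_eq (by
    rw [cj, Subgroup.map_sup, ← cj, ← cj, b.p.cj_W hu h1, b.p.symm.cj_W hu h2, sup_comm])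

theorem false_of_fixed {f : G} (hf : f ∈ pCoreOf 2 L₁) (hf' : f ∈ pCoreOf 2 L₂)
    (hR : f * c ∈ wOf K₁ ⊔ wOf K₂) (e : u * f * u⁻¹ = f) : False := by
  have h3 := mul_mem hf b.c_mem.1
  have h4 := mul_mem hf' b.c_mem.2
  have h5 : u * (f * c) * u⁻¹ = f * c := by
    by_cases h : f * c = 1
    · rw [h]; group
    · refine b.eq_of_mem (b.mem_W (conj_mem_of_mem_normalizer (b.norm_R hu h1 h2) hR) ?_) ?_
        (b.mem_W hR h3) h4 (by simpa using h) h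
      · exact b.p.symm.cj_Q hu h2 ▸ conj_mem_map_conj h4
      · exact b.p.cj_Q hu h1 ▸ conj_mem_map_conj h3
  refine h1 (b.cent_le (mem_centralizer_singleton_iff.mpr ?_))
  rw [← mul_inv_eq_iff_eq_mul, ← mul_right_inj f, ← h5, ← e]
  conv_rhs => rw [e]
  group

/-- An element of `T` outside `W₁ W₂` is not fixed or inverted in the relevant way. -/
theorem false_of_inv {e : G} (he : e ∈ T) (hR : e * c ∈ wOf K₁ ⊔ wOf K₂)
    (h : (u * e * u⁻¹ = e ∧ u * u = e) ∨ (u * e * u⁻¹ = e⁻¹ ∧ u * u = 1)) : False := by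
  have hQ : e ∈ pCoreOf 2 L₁ ∨ e ∈ pCoreOf 2 L₂ → False := by
    intro hQ
    have h3 : u * e * u⁻¹ = e := by
      rcases h with h | h
      · exact h.1
      · rw [h.1, inv_eq_of_mul_eq_one_right (hQ.elim b.p.mul_self b.p.symm.mul_self)]
    rcases hQ with hQ | hQ
    · exact b.false_of_fixed hu h1 h2 hQ (h3 ▸ b.p.cj_Q hu h1 ▸ conj_mem_map_conj hQ) hR h3
    · exact b.false_of_fixed hu h1 h2 (h3 ▸ b.p.symm.cj_Q hu h2 ▸ conj_mem_map_conj hQ) hQ hR h3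
  have he1 : e ∉ pCoreOf 2 L₁ := fun h => hQ (Or.inl h)
  have he2 : e ∉ pCoreOf 2 L₂ := fun h => hQ (Or.inr h)
  obtain ⟨a, ha, ha'⟩ := SetLike.not_le_iff_exists.mp b.symm.W_not_le
  have haQ := b.p.W_le ha
  have hb : u * a * u⁻¹ ∈ wOf K₂ := b.p.cj_W hu h1 ▸ conj_mem_map_conj ha
  have hbQ := b.p.symm.W_le hb
  have hb' : u * a * u⁻¹ ∉ pCoreOf 2 L₁ := fun h => ha' (by
    rw [← b.p.symm.cj_Q hu h2, mem_map_conj] at h
    simpa [mul_assoc] using h)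
  have haT := b.p.Q_le haQ
  have hbT := b.p.symm.Q_le hbQ
  have hf1 := b.p.mul_mem_Q he (mul_mem haT hbT) he1 (by rwa [mul_mem_cancel_left haQ])
  have hf2 := b.p.symm.mul_mem_Q he (mul_mem haT hbT) he2 (by rwa [mul_mem_cancel_right hbQ])
  refine b.false_of_fixed hu h1 h2 hf1 hf2 ?_ ?_
  · rw [mul_assoc, b.cT _ (mul_mem haT hbT), ← mul_assoc]
    exact mul_mem hR (mul_mem_sup ha hb)
  have hai := inv_eq_of_mul_eq_one_right (b.p.mul_self haQ)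
  have hbi := inv_eq_of_mul_eq_one_right (b.p.symm.mul_self hbQ)
  rcases h with ⟨h3, h4⟩ | ⟨h3, h4⟩
  · have h5 : ⁅a, e⁆ = ⁅a, u * a * u⁻¹⁆ := b.eq_of_mem (b.comm_mem_W haQ he)
      (b.p.symm.comm_mem_Q haT he) (b.comm_mem_W haQ hbT) (b.p.symm.comm_mem_Q haT hbT)
      (b.comm_ne_one haQ ha' he he1) (b.comm_ne_one haQ ha' hbT hb')
    have h6 : e * a * e⁻¹ = u * a * u⁻¹ * a * (u * a * u⁻¹)⁻¹ := by
      calc e * a * e⁻¹ = ⁅a, e⁆⁻¹ * a := by simp only [commutatorElement_def]; group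
        _ = _ := by rw [h5]; simp only [commutatorElement_def]; group
    calc u * (e * (a * (u * a * u⁻¹))) * u⁻¹
        = u * e * u⁻¹ * (u * a * u⁻¹) * (u * u * a * (u * u)⁻¹) := by group
      _ = e * (u * a * u⁻¹ * (u * a * u⁻¹)) * a * (u * a * u⁻¹)⁻¹ := by rw [h3, h4, h6]; group
      _ = _ := by rw [b.p.symm.mul_self hbQ, hbi]; group
  · have h5 := b.p.inf_le_centralizer ⟨hf1, hf2⟩ _ he
    have h6 := inv_eq_of_mul_eq_one_right (b.p.mul_self hf1)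
    calc u * (e * (a * (u * a * u⁻¹))) * u⁻¹
        = u * e * u⁻¹ * (u * a * u⁻¹) * (u * u * a * (u * u)⁻¹) := by group
      _ = e⁻¹ * (u * a * u⁻¹)⁻¹ * a⁻¹ := by rw [h3, h4, hai, hbi]; group
      _ = e⁻¹ * ((e * (a * (u * a * u⁻¹)))⁻¹ * e) := by group
      _ = _ := by rw [h6, ← h5, inv_mul_cancel_left]

end Outer

theorem mul_mem_T {S : Subgroup G} (hS : IsPGroup 2 S) (hTS : T ≤ S) {x y : G}
    (hx : x ∈ S ⊓ normalizer (T : Set G)) (hy : y ∈ S ⊓ normalizer (T : Set G)) (hx' : x ∉ T)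
    (hy' : y ∉ T) : x * y ∈ T := by
  refine (b.p.g₁.inf_eq hS hTS).le ⟨mul_mem hx.1 hy.1, ?_⟩
  rw [← b.p.g₁.normalizer_pCore]
  refine mem_normalizer_of_cj_eq ?_
  rw [cj, ← map_conj_map_conj, ← cj, ← cj, b.p.cj_Q hy.2 (b.p.not_mem hS hTS hy.1 hy'),
    b.p.symm.cj_Q hx.2 (b.p.symm.not_mem hS hTS hx.1 hx')]

theorem le_T {S A : Subgroup G} (hS : IsPGroup 2 S) (hTS : T ≤ S)
    (hA : IsElementaryAbelian 2 A) (hAS : A ≤ S ⊓ normalizer (T : Set G)) (h8 : Nat.card A = 8) :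
    A ≤ T := by
  by_contra hn
  obtain ⟨a, ha, haT⟩ := SetLike.not_le_iff_exists.mp hn
  have h1 := b.p.not_mem hS hTS (hAS ha).1 haT
  have h2 := b.p.symm.not_mem hS hTS (hAS ha).1 haT
  have h3 := card_le_two_mul (B := A) (C := T) fun x hx y hy =>
    b.mul_mem_T hS hTS (hAS hx) (hAS hy)
  have hc : ∀ x ∈ T ⊓ A, a * x * a⁻¹ = x := fun x hx =>
    mul_inv_eq_iff_eq_mul.mpr ((H51.isEA_iff.mp hA).1 a ha x hx.2)
  have h4 : T ⊓ A ≤ pCoreOf 2 L₁ ⊓ pCoreOf 2 L₂ := by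
    rcases b.p.le_or (H51.isEA_of_le hA inf_le_right) (inf_le_left : T ⊓ A ≤ T) with h | h
    · exact le_inf h fun x hx => hc x hx ▸ b.p.cj_Q (hAS ha).2 h1 ▸ conj_mem_map_conj (h hx)
    · exact le_inf (fun x hx => hc x hx ▸ b.p.symm.cj_Q (hAS ha).2 h2 ▸ conj_mem_map_conj (h hx)) h
  have h5 := b.p.card_inf
  rw [b.symm.facts.1] at h5
  have h6 := (H53.eq_of_le_of_card_le h4 (by omega)).ge b.c_mem
  exact h1 (b.cent_le (mem_centralizer_singleton_iff.mpr (mul_inv_eq_iff_eq_mul.mp (hc c h6))))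

theorem le_normalizer_T {S : Subgroup G} (hS : IsPGroup 2 S) (hTS : T ≤ S) :
    S ≤ normalizer (T : Set G) := by
  by_contra hn
  obtain ⟨y, hy, hy'⟩ := SetLike.exists_of_lt (H83.lt_inf_normalizer hS (inf_lt_left.mpr hn))
  have key : ∀ Q ≤ T, IsElementaryAbelian 2 Q → Nat.card Q = 8 → cj y Q ≤ T := fun Q h1 h2 h3 =>
    b.le_T hS hTS (H51.isEA_map h2 _) ((map_mono (h1.trans (le_inf hTS le_normalizer))).trans
      (cj_eq_of_mem_normalizer hy.2).le) (by rw [card_map_conj, h3])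
  refine hy' ⟨hy.1, mem_normalizer_of_cj_eq (H53.eq_of_le_of_card_le
    ((map_mono b.p.le_sup).trans ?_) (card_map_conj y T).ge)⟩
  rw [Subgroup.map_sup]
  exact sup_le (key _ b.p.Q_le b.p.isEA b.facts.1) (key _ b.p.symm.Q_le b.p.symm.isEA b.symm.facts.1)

theorem exists_normal : ∃ N : Subgroup G, N.Normal ∧ N.index = 2 ∧ c ∉ N := by
  obtain ⟨S, hTS⟩ := b.p.g₁.syl.isPGroup.exists_le_sylow
  have hS := S.isPGroup'
  have hn := b.le_normalizer_T hS hTS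
  have hcT := b.p.Q_le b.c_mem.1
  have hc2 : c ^ 2 = 1 := by rw [sq, b.c2]
  rcases hTS.eq_or_lt with e | hlt
  · refine H87.thompson_transfer_involution (H87.odd_index_sylow S) ?_ hc2 b.conj_not_mem
    rw [← e]
    exact relIndex_eq_two_iff_exists_notMem_and.mpr
      ⟨c, hcT, b.c_not_mem, fun x hx => (b.mem_or hx).symm⟩
  have h1 : ∀ u ∈ (S : Subgroup G), u ∉ T → u ∉ L₁ := fun u => b.p.not_mem hS hTS
  have h2 : ∀ u ∈ (S : Subgroup G), u ∉ T → u ∉ L₂ := fun u => b.p.symm.not_mem hS hTS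
  have hmul : ∀ x ∈ (S : Subgroup G), ∀ y ∈ (S : Subgroup G), x ∉ T → y ∉ T → x * y ∈ T :=
    fun x hx y hy => b.mul_mem_T hS hTS ⟨hx, hn hx⟩ ⟨hy, hn hy⟩
  obtain ⟨u, hu, huT, hinv⟩ : ∃ u ∈ (S : Subgroup G), u ∉ T ∧
      ∀ x, x * x = 1 → x * u ∉ wOf K₁ ⊔ wOf K₂ := by
    by_cases hex : ∃ y ∈ (S : Subgroup G), y ∉ T ∧ y * y = 1
    · obtain ⟨y, hy, hyT, hy2⟩ := hex
      refine ⟨y * c, mul_mem hy (hTS hcT), by rwa [mul_mem_cancel_right hcT], fun x hx hR => ?_⟩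
      rw [← mul_assoc] at hR
      refine b.false_of_inv (hn hy) (h1 y hy hyT) (h2 y hy hyT)
        ((mul_mem_cancel_right hcT).mp (b.R_le hR)) hR (Or.inr ⟨?_, hy2⟩)
      rw [mul_inv_rev, inv_eq_of_mul_eq_one_right hx, inv_eq_of_mul_eq_one_right hy2, mul_assoc,
        mul_assoc x, hy2, mul_one]
    · obtain ⟨u, hu, huT⟩ := SetLike.exists_of_lt hlt
      exact ⟨u, hu, huT, fun x hx hR => hex ⟨x, (mul_mem_cancel_right hu).mp (hTS (b.R_le hR)),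
        fun e => huT ((mul_mem_cancel_left e).mp (b.R_le hR)), hx⟩⟩
  have hun := b.norm_R (hn hu) (h1 u hu huT) (h2 u hu huT)
  have huu : u * u ∈ wOf K₁ ⊔ wOf K₂ := (b.mem_or (hmul u hu u hu huT huT)).resolve_right fun e =>
    b.false_of_inv (hn hu) (h1 u hu huT) (h2 u hu huT) (hmul u hu u hu huT huT) e
      (Or.inl ⟨by group, rfl⟩)
  have hno : ∀ g : G, g * c * g⁻¹ ∉ wOf K₁ ⊔ wOf K₂ ⊔ zpowers u := fun g hg =>
    (mem_or_mul_mem_of_mem_sup hun huu hg).elim (b.conj_not_mem g) (hinv _ (by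
      calc g * c * g⁻¹ * (g * c * g⁻¹) = g * (c * c) * g⁻¹ := by group
        _ = 1 := by rw [b.c2]; group))
  refine H87.thompson_transfer_involution (H87.odd_index_sylow S) ?_ hc2 hno
  refine relIndex_eq_two_iff_exists_notMem_and.mpr
    ⟨c, hTS hcT, by simpa using hno 1, fun x hx => ?_⟩
  by_cases hxT : x ∈ T
  · exact (b.mem_or hxT).symm.imp mem_sup_left mem_sup_left
  · refine (b.mem_or (hmul u hu x hx huT hxT)).symm.imp (fun h => ?_) fun h => ?_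
    · rw [mul_assoc] at h
      exact (mul_mem_cancel_left (mem_sup_right (mem_zpowers u))).mp (mem_sup_left h)
    · exact (mul_mem_cancel_left (mem_sup_right (mem_zpowers u))).mp (mem_sup_left h)

theorem not_mem_res : c ∉ resOf 2 (⊤ : Subgroup G) := fun e => by
  obtain ⟨N, hN, h2, hc⟩ := b.exists_normal
  refine hc (resOf_le_iff.mpr (fun g _ ho => ?_) e)
  exact mem_of_pow_mem_of_coprime (Nat.coprime_two_left.mpr ho) (h2 ▸ N.pow_index_mem g)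

theorem card_inf {H U : Subgroup G} (h1 : K₁ ≤ H) (h2 : K₂ ≤ H) (hn : H.Normal) (hc : c ∉ H)
    (hTU : T ≤ U) (hU : U ≤ L₁) : Nat.card ↥(H ⊓ U) * 2 = Nat.card U := by
  have hR : wOf K₁ ⊔ wOf K₂ ≤ H := sup_le (((wOf_le K₁).trans (pCoreOf_le 2 K₁)).trans h1)
    (((wOf_le K₂).trans (pCoreOf_le 2 K₂)).trans h2)
  rw [← H3.card_inf_mul_relIndex H U, relIndex_eq_two_iff_exists_notMem_and.mpr
    ⟨c, hTU (b.p.Q_le b.c_mem.1), hc, fun x hx => ?_⟩]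
  obtain ⟨k, hk, t, ht, rfl⟩ := (H4.mem_sup_iff_of_le_normalizer b.p.norm).mp (b.p.L_eq.le (hU hx))
  refine (b.mem_or ht).symm.imp (fun h => ?_) fun h => mul_mem (h1 hk) (hR h)
  rw [mul_assoc]
  exact mul_mem (h1 hk) (hR h)

end Big

theorem Pair.final {T K₁ L₁ K₂ L₂ : Subgroup G} (p : Pair T K₁ L₁ K₂ L₂) {H : Subgroup G}
    (hH : H = resOf 2 ⊤) : ∃ M₁ M₂ : Subgroup H, M₁ ≠ M₂ ∧ IsMaximalTwoLocal M₁ ∧
      IsMaximalTwoLocal M₂ ∧ Nonempty (M₁ ≃* Equiv.Perm (Fin 4)) ∧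
      Nonempty (M₂ ≃* Equiv.Perm (Fin 4)) ∧ Nat.card ↥(M₁ ⊓ M₂) = 8 := by
  have h1 : K₁ ≤ H := hH ▸ (jc_c3 p.g₁.jc).res.ge.trans (resOf_mono le_top)
  have h2 : K₂ ≤ H := hH ▸ (jc_c3 p.g₂.jc).res.ge.trans (resOf_mono le_top)
  have hn : H.Normal := hH ▸ normalizer_eq_top_iff.mp (top_le_iff.mp (le_normalizer_resOf 2 ⊤))
  have hinf : L₁ ⊓ L₂ = T := by
    conv_lhs => rw [p.L_eq, p.symm.L_eq]
    exact p.inf_eq
  have he : ∀ U : Subgroup G, Nonempty (U.subgroupOf H ≃* ↥(H ⊓ U)) := fun U => by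
    rw [← inf_subgroupOf_left]
    exact ⟨subgroupOfEquivOfLe inf_le_left⟩
  suffices h : Nonempty (↥(H ⊓ L₁) ≃* Equiv.Perm (Fin 4)) ∧
      Nonempty (↥(H ⊓ L₂) ≃* Equiv.Perm (Fin 4)) ∧ Nat.card ↥(H ⊓ T) = 8 by
    obtain ⟨⟨e₁⟩, ⟨e₂⟩, h8⟩ := h
    refine ⟨L₁.subgroupOf H, L₂.subgroupOf H, fun e => p.ne fun k hk => ?_, p.max_local h1,
      p.symm.max_local h2, (he L₁).map (·.trans e₁), (he L₂).map (·.trans e₂), ?_⟩
    · exact e.ge (x := ⟨k, h2 hk⟩) (p.g₂.le hk)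
    · obtain ⟨e⟩ := he T
      rw [← h8, ← Nat.card_congr e.toEquiv, ← hinf]
      rfl
  rcases p.iso with ⟨⟨e₁⟩, ⟨e₂⟩⟩ | ⟨⟨e₁⟩, ⟨e₂⟩⟩
  · have hT : T ≤ H := by
      refine p.le_sup.trans ?_
      rw [p.L_eq, p.symm.L_eq, p.pCore_eq_wOf e₁, p.symm.pCore_eq_wOf e₂]
      exact sup_le (((wOf_le K₁).trans (pCoreOf_le 2 K₁)).trans h1)
        (((wOf_le K₂).trans (pCoreOf_le 2 K₂)).trans h2)
    rw [p.L_eq, p.symm.L_eq, inf_eq_right.mpr (sup_le h1 hT), inf_eq_right.mpr (sup_le h2 hT),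
      inf_eq_right.mpr hT, ← p.card_T, p.L_eq, p.pCore_eq_wOf e₁, jc_card p.g₁.jc]
    exact ⟨⟨e₁⟩, ⟨e₂⟩, rfl⟩
  · rw [← p.L_eq] at e₁
    rw [← p.symm.L_eq] at e₂
    obtain ⟨a1, c, -, c1, c2, cc, hc⟩ := exists_two e₁
    obtain ⟨a2, d, -, d1, d2, dc, hd⟩ := exists_two e₂
    have b : Big T K₁ L₁ K₂ L₂ c d := ⟨p, a1, a2, c1, c2, cc, d1, d2, dc⟩
    have hcH : c ∉ H := hH ▸ b.not_mem_res
    have hdH : d ∉ H := hH ▸ b.symm.not_mem_res
    have h3 := b.card_inf h1 h2 hn hcH p.g₁.syl.le le_rfl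
    have h4 := b.symm.card_inf h2 h1 hn hdH p.g₂.syl.le le_rfl
    have h5 := b.card_inf h1 h2 hn hcH le_rfl p.g₁.syl.le
    have h6 := p.card_T
    rw [b.facts.1] at h6
    exact ⟨hc _ inf_le_right (fun e => hcH e.1) (by omega),
      hd _ inf_le_right (fun e => hdH e.1) (by omega), by omega⟩

end Cfsg.Agent.H84
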