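import Cfsg.Agent.H49.Simp
import Cfsg.Agent.H4.CoprimeAction
import Cfsg.Prelude.Def_CaseTheorems

/-! Maximal 2-local subgroups as normalizers of `Ω₁ Z O₂`, and 2-constraint from a large
extraspecial subgroup. -/

set_option autoImplicit false

namespace Cfsg.Agent.H84.M2Ch

open Cfsg Subgroup Cfsg.Agent.H49

variable {G : Type*} [Group G]

/-- The elements of order at most two in the centre of `R`. -/
def Om (R : Subgroup G) : Subgroup G where
  carrier := {x | x ∈ R ∧ x ∈ centralizer (R : Set G) ∧ x * x = 1}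
  one_mem' := ⟨one_mem _, one_mem _, mul_one 1⟩
  mul_mem' := by
    rintro a b ⟨a1, a2, a3⟩ ⟨b1, b2, b3⟩
    refine ⟨mul_mem a1 b1, mul_mem a2 b2, ?_⟩
    rw [mul_assoc, ← mul_assoc b, a2 b b1, mul_assoc, b3, mul_one, a3]
  inv_mem' := by
    rintro a ⟨a1, a2, a3⟩
    exact ⟨inv_mem a1, inv_mem a2, by rw [← mul_inv_rev, a3, inv_one]⟩

theorem mem_Om {R : Subgroup G} {x : G} :
    x ∈ Om R ↔ x ∈ R ∧ x ∈ centralizer (R : Set G) ∧ x * x = 1 := Iff.rfl

theorem normalizer_le_Om (R : Subgroup G) :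
    normalizer (R : Set G) ≤ normalizer ((Om R : Subgroup G) : Set G) := fun g hg =>
  mem_normalizer_iff.2 fun x => and_congr (mem_normalizer_iff.1 hg x) (and_congr
    (mem_normalizer_iff.1 (H4.normalizer_le_normalizer_centralizer _ hg) x)
    (by rw [conj_mul, conj_eq_one_iff]))

theorem isPGroup_of_sq {V : Subgroup G} (h : ∀ x ∈ V, x * x = 1) : IsPGroup 2 V := fun x =>
  ⟨1, Subtype.ext (by rw [pow_one, sq]; exact h x x.2)⟩

theorem two_dvd_card [Finite G] {V : Subgroup G} (h : IsPGroup 2 V) (h1 : V ≠ ⊥) :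
    2 ∣ Nat.card V := by
  have : Fact (Nat.Prime 2) := ⟨Nat.prime_two⟩
  obtain ⟨n, hn⟩ := h.exists_card_eq
  rcases n with _ | n
  · exact absurd (card_eq_one.1 hn) h1
  · rw [hn]; exact dvd_pow_self 2 (Nat.succ_ne_zero n)

theorem Om_ne_bot [Finite G] {R : Subgroup G} (h : IsPGroup 2 R) (h1 : R ≠ ⊥) : Om R ≠ ⊥ := by
  have : Fact (Nat.Prime 2) := ⟨Nat.prime_two⟩
  obtain ⟨x, hx, x1, hc⟩ := exists_fixed_of_dvd h le_normalizer (two_dvd_card h h1)
  have h2 : (R ⊓ centralizer (R : Set G) : Subgroup G) ≠ ⊥ := fun e =>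
    x1 (mem_bot.1 (e ▸ mem_inf.2 ⟨hx, hc⟩))
  obtain ⟨y, hy⟩ := exists_prime_orderOf_dvd_card' 2 (two_dvd_card (h.to_le inf_le_left) h2)
  intro e
  have h3 : (y : G) ∈ Om R := ⟨y.2.1, y.2.2, by
    rw [← sq, ← coe_pow, ← hy, pow_orderOf_eq_one, coe_one]⟩
  rw [e, mem_bot, OneMemClass.coe_eq_one] at h3
  rw [h3, orderOf_one] at hy
  omega

/-- 2-constraint. -/
theorem centralizer_le [Finite G] {H R Q : Subgroup G} {z : G}
    (hR : R = (pCore 2 H).map H.subtype) (hH : H = normalizer (R : Set G)) (hQ : LX Q z)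
    (hz : z ∈ Om R) : centralizer (R : Set G) ≤ R := by
  have : Fact (Nat.Prime 2) := ⟨Nat.prime_two⟩
  have p2 : IsPGroup 2 R := hR ▸ H52.isPGroup_map_pCore_subtype H
  have cH : centralizer (R : Set G) ≤ H := hH ▸ centralizer_le_normalizer _
  have nC : H ≤ normalizer ((centralizer (R : Set G) : Subgroup G) : Set G) :=
    hH ▸ H4.normalizer_le_normalizer_centralizer _
  have cQ : centralizer (R : Set G) ≤ normalizer (Q : Set G) := fun x hx =>
    hQ.nz (mem_centralizer_singleton_iff.2 (hx z hz.1).symm)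
  have rQ : R ≤ normalizer (Q : Set G) := fun x hx =>
    hQ.nz (mem_centralizer_singleton_iff.2 (hz.2.1 x hx))
  have h1 : Q ⊓ centralizer (R : Set G) ≤ R := by
    refine (H52.le_map_pCore_subtype (p := 2) inf_le_right
      (H4.le_normalizer_inf cQ le_normalizer) (hQ.isPGroup.to_le inf_le_left)).trans ?_
    refine le_of_le_of_eq (H52.le_map_pCore_subtype ((map_subtype_le _).trans cH)
      (nC.trans (H52.normalizer_le_normalizer_map_pCore _))
      (H52.isPGroup_map_pCore_subtype _)) hR.symm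
  refine le_of_le_of_eq (H52.le_map_pCore_subtype cH nC fun x => ?_) hR.symm
  obtain ⟨k, m, hm, e⟩ := Nat.exists_eq_two_pow_mul_odd (orderOf_pos (x : G)).ne'
  refine ⟨k, Subtype.ext ?_⟩
  rw [coe_pow, coe_one]
  set b := (x : G) ^ 2 ^ k with hb
  have bC : b ∈ centralizer (R : Set G) := pow_mem x.2 _
  have bm : b ^ m = 1 := by rw [hb, ← pow_mul, ← e, pow_orderOf_eq_one]
  have co : (orderOf b).Coprime 2 :=
    (Nat.coprime_two_right.2 hm).coprime_dvd_left (orderOf_dvd_of_pow_eq_one bm)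
  have rb : R ≤ centralizer ((zpowers b : Subgroup G) : Set G) :=
    le_centralizer_iff.1 (zpowers_le.2 bC)
  have h2 := H4.thompson_p_times_q (Q := zpowers b) p2 (by rwa [Nat.card_zpowers]) hQ.isPGroup rb rQ
    (zpowers_le.2 (cQ bC)) (h1.trans rb)
  have h3 : b ∈ Q := hQ.cQ (le_centralizer_iff.1 h2 (mem_zpowers b))
  exact orderOf_eq_one_iff.1 ((co.pow_right 2).eq_one_of_dvd
    (orderOf_dvd_of_pow_eq_one (hQ.pow_four h3)))

theorem exists_core [Finite G] {H : Subgroup G} (hH : IsMaximalTwoLocal H) :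
    ∃ R : Subgroup G, IsPGroup 2 R ∧ Om R ≠ ⊥ ∧ H = normalizer ((Om R : Subgroup G) : Set G) ∧
      ∀ Q z, LX Q z → z ∈ Om R → centralizer (R : Set G) ≤ R := by
  obtain ⟨⟨T, t2, t1, hT⟩, hm⟩ := hH
  have p2 : IsPGroup 2 ((pCore 2 H).map H.subtype) := H52.isPGroup_map_pCore_subtype H
  have le : T ≤ (pCore 2 H).map H.subtype :=
    H52.le_map_pCore_subtype (hT ▸ le_normalizer) hT.le t2
  have ne : (pCore 2 H).map H.subtype ≠ ⊥ := fun e => t1 (eq_bot_iff.2 (e ▸ le))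
  have e1 := (hm _ ⟨_, p2, ne, rfl⟩
    (le_normalizer.trans (H52.normalizer_le_normalizer_map_pCore H))).symm
  have o1 := Om_ne_bot p2 ne
  exact ⟨_, p2, o1, (hm _ ⟨_, isPGroup_of_sq fun x hx => (mem_Om.1 hx).2.2, o1, rfl⟩
    (e1.le.trans (normalizer_le_Om _))).symm, fun Q z hQ hz => centralizer_le rfl e1 hQ hz⟩

end Cfsg.Agent.H84.M2Ch
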