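import Cfsg.Agent.H87.PSDefs
import Cfsg.Agent.Eqn.Cfsg_Agent_H87_PS_uu

/-! The kernel on the blocks (piece IMP2 of S0725). -/

set_option autoImplicit false
set_option linter.unusedSectionVars false

namespace Cfsg.Agent.H84.PsImp2

open Equiv MulAction Cfsg.Agent.H87.PS

universe u

theorem card_le_mul {G β : Type*} [Group G] [Finite G] [Finite β] (L M : Subgroup G) (f : L → β)
    (hf : ∀ g h : L, f g = f h → (g : G)⁻¹ * h ∈ M) :
    Nat.card L ≤ Nat.card β * Nat.card (L ⊓ M : Subgroup G) := by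
  have h1 : Nat.card (M.subgroupOf L) = Nat.card (L ⊓ M : Subgroup G) := by
    rw [← Subgroup.inf_subgroupOf_left]
    exact Nat.card_congr (Subgroup.subgroupOfEquivOfLe inf_le_left).toEquiv
  rw [← (M.subgroupOf L).index_mul_card, h1]
  refine Nat.mul_le_mul_right _ (Nat.card_le_card_of_injective
    (fun q : L ⧸ M.subgroupOf L => f q.out) fun q q' e => ?_)
  rw [← q.out_eq', ← q'.out_eq', QuotientGroup.eq]
  exact hf _ _ e

variable {α : Type u} [Fintype α] [DecidableEq α] {X : Subgroup (Perm α)} {s v m : ℕ}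
  {E : α → α → α → Prop} (h : Blk X s v E) (a : α)

theorem card_one {L : Subgroup (Perm α)} (hm : MinDeg X m) (hL : L ≤ X)
    (hs : ∀ g ∈ L, g.support.card < m) : Nat.card L = 1 := by
  rw [Subgroup.card_eq_one, eq_bot_iff]
  intro g hg
  by_contra c
  exact absurd (hm g (hL hg) c) (not_le.2 (hs g hg))

open Classical in
include h in
theorem card_blk {b : α} (hb : b ≠ a) : (Finset.univ.filter fun c => E a b c).card = s := by
  rw [← h.size a b hb, ← Set.ncard_coe_finset]
  congr 1
  ext c
  simp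

theorem step1 (w : ℕ) : ∃ T : Finset α, a ∉ T ∧ (∀ b ∈ T, ∀ c, E a b c → c ∈ T) ∧
    s * v ≤ T.card + (v - w) * s ∧
    Nat.card (ker h a) ≤ s.factorial ^ w * Nat.card (ker h a ⊓ fixS X T : Subgroup _) := by
  classical
  induction w with
  | zero =>
    refine ⟨∅, by simp, by simp, by simp [mul_comm], ?_⟩
    rw [pow_zero, one_mul, inf_eq_left.2 fun g hg => mem_fixS.2 ⟨hg.1, by simp⟩]
  | succ w ih =>
    obtain ⟨T, h1, h2, h3, h4⟩ := ih
    by_cases e : ∃ b, b ≠ a ∧ b ∉ T
    · obtain ⟨b, hb, hT⟩ := e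
      set B := Finset.univ.filter fun c => E a b c with hB
      have mB : ∀ c, c ∈ B ↔ E a b c := fun c => by simp [hB]
      have cB : B.card = s := card_blk h a hb
      have hd : Disjoint T B := Finset.disjoint_left.2 fun c hc hc' =>
        hT (h2 c hc b (h.symm _ _ _ ((mB c).1 hc')))
      refine ⟨T ∪ B, ?_, ?_, ?_, h4.trans ?_⟩
      · rw [Finset.mem_union, mB]
        exact fun k => k.elim h1 fun k => (h.ne _ _ _ k).2 rfl
      · intro c hc d hd'
        rw [Finset.mem_union] at hc ⊢
        exact hc.imp (fun k => h2 c k d hd') fun k => (mB d).2 (h.trans _ _ _ _ ((mB c).1 k) hd')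
      · rw [Finset.card_union_of_disjoint hd, cB]
        have : (v - w) * s ≤ (1 + (v - (w + 1))) * s := Nat.mul_le_mul_right _ (by omega)
        rw [add_mul, one_mul] at this
        omega
      · rw [pow_succ, mul_assoc]
        refine Nat.mul_le_mul_left _ ?_
        have inv : ∀ g : (ker h a ⊓ fixS X T : Subgroup _), ∀ x : B, (g : Perm α) x ∈ B :=
          fun g x => (mB _).2 (h.trans _ _ _ _ ((mB _).1 x.2)
            (g.2.1.2.2 _ (h.ne _ _ _ ((mB _).1 x.2)).2))
        have := card_le_mul (ker h a ⊓ fixS X T) (fixS X B)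
          (fun g => (⟨fun x => ⟨_, inv g x⟩, fun x y e =>
            Subtype.ext ((g : Perm α).injective (congrArg Subtype.val e))⟩ : B ↪ B))
          fun g g' e => mem_fixS.2 ⟨mul_mem (inv_mem g.2.1.1) g'.2.1.1, fun x hx => by
            have := congrArg (fun f : B ↪ B => (f ⟨x, hx⟩ : α)) e
            rw [Perm.mul_apply, Perm.inv_eq_iff_eq]
            exact this.symm⟩
        rw [Nat.card_eq_fintype_card (α := B ↪ B), Fintype.card_embedding_eq, Fintype.card_coe, cB,
          Nat.descFactorial_self] at this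
        refine this.trans (Nat.mul_le_mul_left _ (Subgroup.card_le_of_le ?_))
        rintro g ⟨⟨k1, k2⟩, k3⟩
        exact ⟨k1, k2.1, fun x hx => (Finset.mem_union.1 hx).elim (k2.2 x) (k3.2 x)⟩
    · push Not at e
      refine ⟨T, h1, h2, ?_, h4.trans (Nat.mul_le_mul_right _ ?_)⟩
      · have : (Finset.univ.erase a).card ≤ T.card :=
          Finset.card_le_card fun b hb => e b (Finset.ne_of_mem_erase hb)
        rw [Finset.card_erase_of_mem (Finset.mem_univ a), Finset.card_univ, h.card] at this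
        omega
      · exact Nat.pow_le_pow_right s.factorial_pos (Nat.le_succ w)

theorem part1 (hm : MinDeg X m) (w : ℕ) (hw : (v - w) * s < m) :
    Nat.card (ker h a) ≤ s.factorial ^ w := by
  obtain ⟨T, h1, -, h3, h4⟩ := step1 h a w
  rwa [card_one (L := ker h a ⊓ fixS X T) hm (fun g hg => hg.1.1) fun g hg => ?_, mul_one] at h4
  have h5 : g.support ⊆ (insert a T)ᶜ := fun x hx => Finset.mem_compl.2 fun k => by
    rcases Finset.mem_insert.1 k with rfl | k
    · exact Perm.mem_support.1 hx hg.1.2.1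
    · exact Perm.mem_support.1 hx (hg.2.2 x k)
  have h6 := Finset.card_le_card h5
  rw [Finset.card_compl, Finset.card_insert_of_notMem h1, h.card] at h6
  omega

theorem mem_ker_conj {x z : Perm α} (hx : x ∈ X) (hz : x⁻¹ * z * x ∈ ker h a) :
    z ∈ ker h (x a) := by
  obtain ⟨h1, h2, h3⟩ := hz
  refine ⟨by simpa [mul_assoc] using mul_mem (mul_mem hx h1) (inv_mem hx), ?_, fun b hb => ?_⟩
  · rwa [Perm.mul_apply, Perm.mul_apply, Perm.inv_eq_iff_eq] at h2
  · have := h.inv x hx _ _ _ (h3 (x⁻¹ b) fun e => hb (by rw [← e]; simp))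
    simpa using this

theorem index_le [IsPretransitive X α] {L : Subgroup (Perm α)} (hL : L ≤ ker h a) {a' : α}
    (ha : a' ≠ a) : Nat.card L ≤
      s * (ker h a).relIndex (fixS X {a}) * Nat.card (L ⊓ ker h a' : Subgroup _) := by
  classical
  obtain ⟨⟨x, hx⟩, rfl⟩ := exists_smul_eq X a a'
  change x a ≠ a at ha
  change _ ≤ _ * Nat.card (L ⊓ ker h (x a) : Subgroup _)
  have h1 := card_le_mul L (fixS X {x a})
    (fun g => (⟨(g : Perm α) (x a), by simpa using (hL g.2).2.2 _ ha⟩ :
      (Finset.univ.filter fun c => E a (x a) c)))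
    fun g g' e => mem_fixS.2 ⟨mul_mem (inv_mem (hL g.2).1) (hL g'.2).1, fun y hy => by
      rw [Finset.mem_singleton.1 hy, Perm.mul_apply, Perm.inv_eq_iff_eq]
      exact (congrArg Subtype.val e).symm⟩
  rw [Nat.card_eq_fintype_card (α := (Finset.univ.filter fun c => E a (x a) c : Finset α)),
    Fintype.card_coe, card_blk h a ha] at h1
  have hc : ∀ g : (L ⊓ fixS X {x a} : Subgroup _), x⁻¹ * g * x ∈ fixS X {a} := fun g =>
    mem_fixS.2 ⟨mul_mem (mul_mem (inv_mem hx) g.2.2.1) hx, fun y hy => by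
      rw [Finset.mem_singleton.1 hy, Perm.mul_apply, Perm.mul_apply,
        g.2.2.2 _ (Finset.mem_singleton_self _)]
      simp⟩
  have h2 := card_le_mul (L ⊓ fixS X {x a}) (ker h (x a))
    (fun g => ((⟨_, hc g⟩ : fixS X {a}) : fixS X {a} ⧸ (ker h a).subgroupOf (fixS X {a})))
    fun g g' e => mem_ker_conj h a hx (by
      have := QuotientGroup.eq.1 e
      rw [Subgroup.mem_subgroupOf] at this
      simpa [mul_assoc] using this)
  refine h1.trans ?_
  rw [mul_assoc]
  exact Nat.mul_le_mul_left _ (h2.trans (Nat.mul_le_mul_left _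
    (Subgroup.card_le_of_le (inf_le_inf_right _ inf_le_left))))

theorem step2 [IsPretransitive X α] (k : ℕ) : ∃ (L : Subgroup (Perm α)) (U : Finset (α × α)),
    L ≤ ker h a ∧ (∀ p ∈ U, p.1 ≠ p.2 ∧ E a p.1 p.2) ∧ U.card ≤ uu (Fintype.card α) s k ∧
    (∀ g ∈ L, ∀ b, g b ≠ b → (b, g b) ∈ U) ∧
    Nat.card (ker h a) ≤ (s * (ker h a).relIndex (fixS X {a})) ^ k * Nat.card L := by
  classical
  have ce : (Finset.univ.erase a).card = Fintype.card α - 1 := by
    rw [Finset.card_erase_of_mem (Finset.mem_univ a), Finset.card_univ]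
  induction k with
  | zero =>
    refine ⟨ker h a, (Finset.univ.erase a).biUnion fun b =>
      ((Finset.univ.filter fun c => E a b c).erase b).image fun c => (b, c), le_rfl, ?_, ?_, ?_,
      by simp⟩
    · intro p hp
      simp only [Finset.mem_biUnion, Finset.mem_image, Finset.mem_erase, Finset.mem_filter] at hp
      obtain ⟨b, -, c, ⟨h1, -, h2⟩, rfl⟩ := hp
      exact ⟨h1.symm, h2⟩
    · refine Finset.card_biUnion_le.trans ?_
      rw [uu, ← ce, ← smul_eq_mul]
      refine Finset.sum_le_card_nsmul _ _ _ fun b hb => Finset.card_image_le.trans ?_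
      have hb' := Finset.ne_of_mem_erase hb
      rw [Finset.card_erase_of_mem (by simpa using h.refl a b hb'), card_blk h a hb']
    · intro g hg b hb
      have hb' : b ≠ a := fun e => hb (by rw [e]; exact hg.2.1)
      simp only [Finset.mem_biUnion, Finset.mem_image, Finset.mem_erase, Finset.mem_filter]
      exact ⟨b, ⟨hb', Finset.mem_univ _⟩, g b, ⟨hb, Finset.mem_univ _, hg.2.2 b hb'⟩, rfl⟩
  | succ k ih =>
    obtain ⟨L, U, h1, h2, h3, h4, h5⟩ := ih
    have hn : 0 < Fintype.card α - 1 := by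
      have := Nat.mul_le_mul h.s2 h.v2
      rw [h.card]
      omega
    have hs : ∑ a' ∈ Finset.univ.erase a, (U.filter fun p => E a' p.1 p.2).card =
        U.card * (s - 2) := by
      simp only [Finset.card_filter]
      rw [Finset.sum_comm, ← smul_eq_mul, ← Finset.sum_const]
      refine Finset.sum_congr rfl fun p hp => ?_
      have h6 : (Finset.univ.filter fun c => E c p.1 p.2).card = s - 1 := by
        rw [← h.cnt _ _ (h2 p hp).1, ← Set.ncard_coe_finset]
        congr 1
        ext c
        simp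
      rw [← Finset.card_filter, Finset.filter_erase,
        Finset.card_erase_of_mem (by simpa using (h2 p hp).2), h6]
      omega
    obtain ⟨a', ha', h6⟩ := Finset.exists_le_of_sum_le (s := Finset.univ.erase a)
      (f := fun a' => (U.filter fun p => E a' p.1 p.2).card * (Fintype.card α - 1))
      (g := fun _ => U.card * (s - 2)) (Finset.card_pos.1 (by rwa [ce])) (by
        rw [← Finset.sum_mul, hs, Finset.sum_const, ce, smul_eq_mul, mul_comm])
    refine ⟨L ⊓ ker h a', U.filter fun p => E a' p.1 p.2, inf_le_left.trans h1,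
      fun p hp => h2 p (Finset.mem_filter.1 hp).1, ?_, fun g hg b hb => ?_, h5.trans ?_⟩
    · rw [uu, Nat.le_div_iff_mul_le hn]
      exact h6.trans (Nat.mul_le_mul_right _ h3)
    · exact Finset.mem_filter.2 ⟨h4 g hg.1 b hb,
        hg.2.2.2 b fun e => hb (by rw [e]; exact hg.2.2.1)⟩
    · rw [pow_succ, mul_assoc]
      exact Nat.mul_le_mul_left _ (index_le h a h1 (Finset.ne_of_mem_erase ha'))

theorem imp2 : Imp2Stmt.{u} := by
  intro α _ _ X s v m E h a _ hm
  refine ⟨part1 h a hm, fun k hk => ?_⟩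
  obtain ⟨L, U, h1, -, h3, h4, h5⟩ := step2 h a k
  rwa [card_one (L := L) hm (fun g hg => (h1 hg).1) fun g hg => ?_, mul_one] at h5
  refine lt_of_le_of_lt (le_trans ?_ h3) hk
  exact Finset.card_le_card_of_injOn (fun b => (b, g b))
    (fun b hb => h4 g hg b (Perm.mem_support.1 hb)) fun b _ c _ e => congrArg Prod.fst e

end Cfsg.Agent.H84.PsImp2
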