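import Cfsg.Agent.H35.RfQ

/-! Project RF, piece VCG: commutators between `R` and `V` in the code case. -/

set_option autoImplicit false

namespace Cfsg.Agent.H84.RfVcG

open Cfsg Subgroup Cfsg.Agent.H42 Cfsg.Agent.H18.Rf Cfsg.Agent.H35.RF
open Cfsg.Agent.H48 (IsWord)
open scoped commutatorElement Pointwise symmDiff

universe u

/-- the masks of the two trivial words -/
def in0 (n : ℕ) : Bool := Nat.beq n 0 || Nat.beq n 16777215

/-- the masks of the four words over the central involution -/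
def inZ (n : ℕ) : Bool := in0 n || (Nat.beq n oct0 || Nat.beq n (Nat.xor oct0 16777215))

/-- the masks disjoint from or containing the octad -/
def inW (n : ℕ) : Bool := Nat.beq (Nat.land n oct0) 0 || Nat.beq (Nat.land oct0 n) oct0

theorem in0_iff {n : ℕ} (hn : n < 2 ^ 24) :
    (toSet n = ∅ ∨ toSet n = Finset.univ) ↔ in0 n = true := by
  rw [in0, Bool.or_eq_true, Nat.beq_eq, Nat.beq_eq, toSet_eq_empty_iff hn, ← toSet_full,
    toSet_eq_iff hn (by norm_num)]

theorem inZ_iff {n : ℕ} (hn : n < 2 ^ 24) :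
    (toSet n = ∅ ∨ toSet n = Finset.univ ∨ toSet n = o0 ∨ toSet n = o0ᶜ) ↔ inZ n = true := by
  rw [inZ, Bool.or_eq_true, Bool.or_eq_true, Nat.beq_eq, Nat.beq_eq, ← in0_iff hn, o0,
    ← toSet_compl, toSet_eq_iff hn oct0_lt, toSet_eq_iff hn (xor_lt oct0_lt (by norm_num)),
    or_assoc]

theorem inW_iff {n : ℕ} (hn : n < 2 ^ 24) :
    (Disjoint (toSet n) o0 ∨ o0 ⊆ toSet n) ↔ inW n = true := by
  rw [inW, Bool.or_eq_true, Nat.beq_eq, Nat.beq_eq, o0, toSet_disjoint_iff _ hn,
    toSet_subset_iff _ oct0_lt]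

/-- a check on the numbers below `4096`, in blocks -/
noncomputable def all12 (p : ℕ → Bool) : Bool :=
  allB (fun a => allB (fun b => force (Nat.add (Nat.mul 64 a) b) p) 64) 64

theorem of_all12 {p : ℕ → Bool} (h : all12 p = true) {m : ℕ} (hm : m < 4096) : p m = true := by
  have h1 := of_allB (of_allB h (i := m / 64) (by omega)) (i := m % 64) (by omega)
  rw [force_eq] at h1
  have h2 : Nat.add (Nat.mul 64 (m / 64)) (m % 64) = m := Nat.div_add_mod m 64
  rwa [h2] at h1

theorem chk_cz : all12 (fun m => force (enc m) fun c =>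
    !(allL (fun g => force (Nat.xor (img g c) c) in0) gensE16) || inZ c) = true := by
  decide +kernel

theorem chk_cv : all12 (fun m => force (enc m) fun c =>
    !(allL (fun g => force (Nat.xor (img g c) c) inZ) gensE16) || inW c) = true := by
  decide +kernel

/-- the word is moved visibly -/
noncomputable def bad (y c : ℕ) : Bool := !inZ (Nat.xor (img y c) c)

theorem chk_hyp : orbAll (actsOf pmul gensE16) pid 20 (fun y => Nat.beq y pid ||
    (bad y 4845570 && (bad y 6053905 && bad y (Nat.xor 4845570 6053905)))) = true := by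
  decide +kernel

theorem code1 : isCode 4845570 = true := by decide +kernel
theorem code2 : isCode 6053905 = true := by decide +kernel

section

variable {G : Type u} [Group G] {V : Subgroup G} {ρ : NN V →* M24} {ψ : Finset GolayPt → G}

theorem word_smul (x : M24) {c : Finset GolayPt} (hc : IsWord c) : IsWord (x • c) :=
  IsWord.smul x.2 hc

theorem comm_eq (hS : St V ρ) (hG : Gol V ρ ψ) (n : NN V) {c : Finset GolayPt} (hc : IsWord c) :
    ⁅(n : G), ψ c⁆ = ψ ((ρ n • c) ∆ c) := by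
  have h1 : (ψ c)⁻¹ = ψ c := inv_eq_of_mul_eq_one_right (hS.el _ (hG.mem c hc))
  rw [commutatorElement_def, hG.act n c hc, h1, hG.add _ _ (word_smul _ hc) hc]

theorem comm_mask (hS : St V ρ) (hG : Gol V ρ ψ) (n : NN V) {y k : ℕ} (hy : inM y = true)
    (e : toM y = ρ n) (hk : isCode k = true) :
    ⁅(n : G), ψ (toSet k)⁆ = ψ (toSet (Nat.xor (img y k) k)) ∧
      IsWord (toSet (Nat.xor (img y k) k)) ∧ Nat.xor (img y k) k < 2 ^ 24 := by
  have hc : IsWord (toSet k) := toSet_mem_codeSets hk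
  have h1 : toSet (Nat.xor (img y k) k) = (ρ n • toSet k) ∆ toSet k := by
    rw [toSet_xor, ← toM_smul_toSet hy, e]
  refine ⟨?_, ?_, xor_lt (img_lt (inM_isPerm hy) k) (isCode_lt hk)⟩
  · rw [h1, comm_eq hS hG n hc]
  · rw [h1]
    exact (word_smul _ hc).symmDiff hc

theorem exists_gen (hS : St V ρ) {g : ℕ} (hg : g ∈ gensE16) :
    ∃ n : NN V, toM g = ρ n ∧ (n : G) ∈ RG V ρ := by
  obtain ⟨n, hn⟩ := hS.sur (toM g)
  refine ⟨n, hn.symm, ?_⟩
  rw [RG, coe_mem_pre, hn, fixS_oct0_eq.1]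
  exact toM_mem_gen hg

theorem exists_enc (hG : Gol V ρ ψ) {v : G} (hv : v ∈ V) :
    ∃ m < 4096, ψ (toSet (enc m)) = v := by
  obtain ⟨c, hc, rfl⟩ := hG.sur v hv
  obtain ⟨m, hm, rfl⟩ := (mem_codeSets_iff_enc c).mp hc
  exact ⟨m, hm, rfl⟩

/-- of two elements outside a subgroup of index two the product lies inside -/
theorem three [Finite G] {V₀ : Subgroup G} (hle : V₀ ≤ V) (hc : Nat.card V = 2 * Nat.card V₀)
    {a b : G} (ha : a ∈ V) (hb : b ∈ V) : a ∈ V₀ ∨ b ∈ V₀ ∨ a * b ∈ V₀ := by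
  have h1 : (V₀.subgroupOf V).index = 2 := by
    have h2 := (V₀.subgroupOf V).index_mul_card
    rw [Nat.card_congr (subgroupOfEquivOfLe hle).toEquiv, hc] at h2
    exact Nat.eq_of_mul_eq_mul_right Nat.card_pos h2
  have h3 := mul_mem_iff_of_index_two h1 (a := ⟨a, ha⟩) (b := ⟨b, hb⟩)
  simp only [mem_subgroupOf, Subgroup.coe_mul] at h3
  by_cases h4 : a ∈ V₀
  · exact Or.inl h4
  · by_cases h5 : b ∈ V₀
    · exact Or.inr (Or.inl h5)
    · exact Or.inr (Or.inr (h3.mpr (iff_of_false h4 h5)))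

end

theorem vcG (hK : KitGStmt.{u}) (hA : VaGStmt.{u}) : VcGStmt.{u} := by
  intro G _ _ V ρ ψ hS hG
  obtain ⟨-, kW, kZ, -⟩ := hK G V ρ ψ hS hG
  have hV := (hA G V ρ ψ hS hG).1
  refine ⟨?_, ?_, ?_⟩
  · intro w hw h
    obtain ⟨m, hm, rfl⟩ := exists_enc hG (hV.WV hw)
    have hk := isCode_enc hm
    rw [kZ _ (toSet_mem_codeSets hk), inZ_iff (enc_lt m)]
    have h1 := of_all12 chk_cz hm
    rw [force_eq, Bool.or_eq_true, Bool.not_eq_true', ← Bool.not_eq_true] at h1
    refine h1.resolve_left (not_not.mpr (allL_iff.mpr fun g hg => ?_))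
    obtain ⟨n, e, hn⟩ := exists_gen hS hg
    obtain ⟨h2, h3, h4⟩ := comm_mask hS hG n (inM_gensE16 g hg) e hk
    rw [force_eq, ← in0_iff h4, ← hG.ker _ h3, ← h2, commutatorElement_eq_one_iff_mul_comm]
    exact h n hn
  · intro v hv h
    obtain ⟨m, hm, rfl⟩ := exists_enc hG hv
    have hk := isCode_enc hm
    rw [kW _ (toSet_mem_codeSets hk), inW_iff (enc_lt m)]
    have h1 := of_all12 chk_cv hm
    rw [force_eq, Bool.or_eq_true, Bool.not_eq_true', ← Bool.not_eq_true] at h1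
    refine h1.resolve_left (not_not.mpr (allL_iff.mpr fun g hg => ?_))
    obtain ⟨n, e, hn⟩ := exists_gen hS hg
    obtain ⟨h2, h3, h4⟩ := comm_mask hS hG n (inM_gensE16 g hg) e hk
    rw [force_eq, ← inZ_iff h4, ← kZ _ h3, ← h2]
    exact h n hn
  · intro V₀ _ hle hc r hr h
    obtain ⟨hn, hx⟩ := mem_pre.mp hr
    rw [fixS_oct0_eq.1] at hx
    obtain ⟨y, hy, e, hp⟩ := forall_gen inM_gensE16 chk_hyp hx
    have key : ∀ k, isCode k = true → bad y k = true → ψ (toSet k) ∉ V₀ := by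
      intro k hk hb hm
      obtain ⟨h2, h3, h4⟩ := comm_mask hS hG ⟨r, hn⟩ hy e hk
      have h5 := h _ hm
      change ⁅((⟨r, hn⟩ : NN V) : G), ψ (toSet k)⁆ ∈ _ at h5
      rw [h2, kZ _ h3, inZ_iff h4] at h5
      rw [bad, h5] at hb
      exact Bool.noConfusion hb
    rw [Bool.or_eq_true, Bool.and_eq_true, Bool.and_eq_true] at hp
    rcases hp with hp | ⟨b1, b2, b3⟩
    · rw [Nat.beq_eq] at hp
      rw [hp, toM_pid] at e
      exact (hS.ker ⟨r, hn⟩).mp e.symm
    · exfalso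
      have w1 : IsWord (toSet 4845570) := toSet_mem_codeSets code1
      have w2 : IsWord (toSet 6053905) := toSet_mem_codeSets code2
      rcases three hle hc (hG.mem _ w1) (hG.mem _ w2) with h1 | h1 | h1
      · exact key _ code1 b1 h1
      · exact key _ code2 b2 h1
      · rw [← hG.add _ _ w1 w2, ← toSet_xor] at h1
        exact key _ (isCode_xor code1 code2) b3 h1

end Cfsg.Agent.H84.RfVcG
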