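import Cfsg.Agent.H18.RfSc
import Cfsg.Agent.H49.XSDual

/-! Project RF: the radical has order four in width four. -/

set_option autoImplicit false

namespace Cfsg.Agent.H84.RfXsG2

open Cfsg Subgroup Cfsg.Agent.H18.Rf
open Cfsg.Agent.H49 (XS)

universe u

variable {G : Type u} [Group G]

theorem cosets [Finite G] {H L : Subgroup G} (hH : H ≤ L) {n : ℕ} (f : Fin n → G)
    (hf : ∀ i, f i ∈ L) (hd : ∀ i j, i < j → (f i)⁻¹ * f j ∉ H) : n * Nat.card H ≤ Nat.card L := by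
  have h1 : Function.Injective fun i => (QuotientGroup.mk ⟨f i, hf i⟩ : L ⧸ H.subgroupOf L) := by
    intro i j e
    rcases lt_trichotomy i j with h | h | h
    · exact absurd (QuotientGroup.eq.1 e) (hd i j h)
    · exact h
    · exact absurd (QuotientGroup.eq.1 e.symm) (hd j i h)
  have h2 := Nat.card_le_card_of_injective _ h1
  rw [Nat.card_fin] at h2
  rw [card_eq_card_quotient_mul_card_subgroup (H.subgroupOf L),
    Nat.card_congr (subgroupOfEquivOfLe hH).toEquiv]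
  exact Nat.mul_le_mul_right _ h2

theorem cover [Finite G] {H L : Subgroup G} (hH : H ≤ L) {n : ℕ} (f : Fin n → G)
    (hf : ∀ i, f i ∈ L) (hd : ∀ x ∈ L, ∃ i, (f i)⁻¹ * x ∈ H) : Nat.card L ≤ n * Nat.card H := by
  have h1 : Function.Surjective fun i => (QuotientGroup.mk ⟨f i, hf i⟩ : L ⧸ H.subgroupOf L) := by
    intro q
    obtain ⟨x, rfl⟩ := QuotientGroup.mk_surjective q
    obtain ⟨i, hi⟩ := hd x x.2
    exact ⟨i, QuotientGroup.eq.2 hi⟩
  have h2 := Nat.card_le_card_of_surjective _ h1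
  rw [Nat.card_fin] at h2
  rw [card_eq_card_quotient_mul_card_subgroup (H.subgroupOf L),
    Nat.card_congr (subgroupOfEquivOfLe hH).toEquiv]
  exact Nat.mul_le_mul_right _ h2

/-- The commutator. -/
abbrev cm (a b : G) : G := a * b * a⁻¹ * b⁻¹

theorem cm_left (a b c : G) : cm (a * b) c = a * cm b c * a⁻¹ * cm a c := by unfold cm; group

theorem cm_right (a b c : G) : cm a (b * c) = cm a b * (b * cm a c * b⁻¹) := by unfold cm; group

theorem cm_one {a b : G} (h : b * a = a * b) : cm a b = 1 := by rw [cm, ← h]; group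

theorem cm_self {u y : G} (h : u * (y * y) = y * y * u) : cm (cm u y) y = cm u y * cm u y := by
  have h1 : y * y = u⁻¹ * (y * y) * u := by rw [mul_assoc, ← h]; group
  calc _ = cm u y * (y * y * u * y⁻¹ * u⁻¹ * y⁻¹) := by unfold cm; group
    _ = cm u y * (u * (y * y) * y⁻¹ * u⁻¹ * y⁻¹) := by rw [h]
    _ = _ := by unfold cm; group

theorem mem_L {Q : Subgroup G} {z x y : G} (hQ : XS Q z) (hx : x ∈ Q) (h : cm x y ∈ zpowers z) :
    x ∈ Q ⊓ CM {y} (zpowers z) := by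
  refine ⟨hx, centralizer_le_normalizer _ fun g hg => ?_, fun _ e => e ▸ h⟩
  rcases hQ.mem_Z.1 hg with rfl | rfl
  · rw [one_mul, mul_one]
  · exact (hQ.cen x hx).symm

theorem key [Finite G] {Q Q' X Y R : Subgroup G} {z t s : G} (hQ : XS Q z) (hQ' : XS Q' z)
    (YQ : Y ≤ Q') (XQ : X ≤ Q) (zR : z ∈ R) (RX : R ≤ X)
    (xr : ∀ x ∈ X, ∀ r ∈ R, r * x = x * r) (yr : ∀ y ∈ Y, ∀ r ∈ R, r * y = y * r)
    (re : ∀ r ∈ R, r * r = 1) (xy : ∀ x ∈ X, ∀ y ∈ Y, cm x y ∈ R)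
    (all : ∀ u ∈ Q, ∀ y ∈ Y, cm u y ∈ X) (ht : t ∈ Q) (hs : s ∈ Q)
    (it : ∀ y ∈ Y, cm t y ∈ R → y ∈ Q) (is : ∀ y ∈ Y, cm s y ∈ R → y ∈ Q)
    (its : ∀ y ∈ Y, cm (t * s) y ∈ R → y ∈ Q) (on : ∀ x ∈ X, ∃ y ∈ Y, (cm s y)⁻¹ * x ∈ R)
    (com : ∀ y ∈ Y, cm t y * cm s y = cm s y * cm t y)
    (cL : ∀ y ∈ Y, y ∉ Q → Nat.card ↥(Q ⊓ CM {y} (zpowers z)) = 4 * Nat.card R) :
    ∀ x ∈ X, x * x = 1 := by
  classical
  have ZR : zpowers z ≤ R := zpowers_le.2 zR
  have nrm : (R.subgroupOf X).Normal := ⟨fun r hr g => by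
    have : g * r * g⁻¹ = r := Subtype.ext (by
      change (g : G) * r * (g : G)⁻¹ = r
      rw [← xr g g.2 r hr, mul_inv_cancel_right])
    rwa [this]⟩
  let p : G → X ⧸ R.subgroupOf X := fun g => if h : g ∈ X then QuotientGroup.mk ⟨g, h⟩ else 1
  have pm : ∀ {a b : G}, a ∈ X → b ∈ X → p (a * b) = p a * p b := fun ha hb => by
    simp only [p, dif_pos ha, dif_pos hb, dif_pos (mul_mem ha hb)]; rfl
  have pe : ∀ {a b : G}, a ∈ X → b ∈ X → (p a = p b ↔ a⁻¹ * b ∈ R) := fun ha hb => by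
    simp only [p, dif_pos ha, dif_pos hb]; exact QuotientGroup.eq
  have p1 : ∀ {a : G}, a ∈ X → (p a = 1 ↔ a ∈ R) := fun ha => by
    simp only [p, dif_pos ha]; exact QuotientGroup.eq_one_iff _
  clear_value p
  have pp : ∀ {a : G}, a ∈ X → p a * p a = 1 := fun ha => by
    rw [← pm ha ha, p1 (mul_mem ha ha)]; exact ZR (hQ.sq_mem (XQ ha))
  have pr : ∀ {a r : G}, a ∈ X → r ∈ R → p (a * r) = p a := fun ha hr => by
    rw [pm ha (RX hr), (p1 (RX hr)).2 hr, mul_one]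
  have qf : ∀ {a b : G}, a ∈ X → b ∈ X → p a = p b → a * a = b * b := fun {a b} ha hb e => by
    have h := (pe ha hb).1 e
    obtain ⟨r, rfl⟩ : ∃ r, b = a * r := ⟨a⁻¹ * b, by group⟩
    rw [inv_mul_cancel_left] at h
    rw [mul_assoc, ← mul_assoc r, xr a ha r h, mul_assoc, re r h, mul_one]
  have nf : ∀ {a b y : G}, a ∈ X → b ∈ X → y ∈ Y → p a = p b → cm a y = cm b y :=
    fun {a b y} ha hb hy e => by
      have h := (pe ha hb).1 e
      obtain ⟨r, rfl⟩ : ∃ r, b = a * r := ⟨a⁻¹ * b, by group⟩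
      rw [inv_mul_cancel_left] at h
      rw [cm_left, cm_one (yr y hy r h).symm, mul_one, mul_inv_cancel, one_mul]
  have nl : ∀ {a b y : G}, a ∈ X → b ∈ X → y ∈ Y → cm (a * b) y = cm b y * cm a y :=
    fun {a b y} ha hb hy => by rw [cm_left, ← xr a ha _ (xy b hb y hy), mul_inv_cancel_right]
  have nr : ∀ {a y y' : G}, a ∈ X → y ∈ Y → y' ∈ Y → cm a (y * y') = cm a y * cm a y' :=
    fun {a y y'} ha hy hy' => by rw [cm_right, ← yr y hy _ (xy a ha y' hy'), mul_inv_cancel_right]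
  have tr : ∀ {u y y' : G}, u ∈ Q → y ∈ Y → y' ∈ Y →
      p (cm u (y * y')) = p (cm u y) * p (cm u y') := fun {u y y'} hu hy hy' => by
    have h1 := all u hu y' hy'
    have h2 := xy _ (inv_mem h1) y hy
    rw [cm_right, show y * cm u y' * y⁻¹ = cm u y' * cm (cm u y')⁻¹ y by unfold cm; group,
      pm (all u hu y hy) (mul_mem h1 (RX h2)), pr h1 h2]
  have tl : ∀ {y : G}, y ∈ Y → p (cm (t * s) y) = p (cm s y) * p (cm t y) := fun {y} hy => by
    have h1 := all s hs y hy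
    rw [cm_left]
    rcases hQ.conj ht (XQ h1) with e | e <;> rw [e]
    · exact pm h1 (all t ht y hy)
    · rw [pm (mul_mem h1 (RX zR)) (all t ht y hy), pr h1 zR]
  have sf : ∀ {u y : G}, u ∈ Q → y ∈ Y → cm (cm u y) y = cm u y * cm u y := fun {u y} hu hy => by
    refine cm_self ?_
    rcases hQ'.sq (YQ hy) with e | e <;> rw [e]
    · rw [one_mul, mul_one]
    · exact hQ.cen u hu
  have inQ : ∀ {u y : G}, u ∈ Q → y ∈ Q → cm u y ∈ R := fun hu hy => ZR (hQ.commutator_mem hu hy)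
  intro x hx
  obtain ⟨y', hy', e1⟩ := on x hx
  have hb' := all t ht y' hy'
  have hc := all s hs y' hy'
  obtain ⟨y, hy, e2⟩ := on _ hb'
  have ha := all t ht y hy
  have hb := all s hs y hy
  rw [← pe hc hx] at e1
  rw [← pe hb hb'] at e2
  rw [← qf hc hx e1]
  by_cases yQ : y' ∈ Q
  · exact re _ (inQ hs yQ)
  have nb : p (cm s y) ≠ 1 := fun e => yQ (it y' hy' ((p1 hb').1 (e2 ▸ e)))
  have yQ' : y ∉ Q := fun e => nb ((p1 hb).2 (inQ hs e))
  have na : p (cm t y) ≠ 1 := fun e => yQ' (it y hy ((p1 ha).1 e))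
  have nab : p (cm s y) * p (cm t y) ≠ 1 := fun e =>
    yQ' (its y hy ((p1 (all _ (mul_mem ht hs) y hy)).1 ((tl hy).trans e)))
  have bb : cm s y * cm s y * (cm s y * cm s y) = 1 := re _ (ZR (hQ.sq_mem (XQ hb)))
  have P1 : cm (cm t y) y' = cm s y * cm s y := by
    have hyy := mul_mem hy hy'
    have hT := all t ht _ hyy
    have hab := mul_mem ha hb
    have k1 : p (cm t (y * y')) = p (cm t y * cm s y) := by rw [tr ht hy hy', pm ha hb, e2]
    have k2 := sf ht hyy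
    rw [nf hT hab hyy k1, qf hT hab k1, nr hab hy hy', nl ha hb hy, nl ha hb hy', sf ht hy, sf hs hy,
      nf hb hb' hy' e2, sf ht hy', ← qf hb hb' e2, (Commute.mul_mul_mul_comm (com y hy).symm _ _),
      ← com y hy, mul_eq_left] at k2
    exact mul_left_cancel (k2.trans bb.symm)
  have La := mem_L hQ (XQ ha) (P1 ▸ hQ.sq_mem (XQ hb))
  have Lb := mem_L hQ (XQ hb') ((sf ht hy').symm ▸ hQ.sq_mem (XQ hb'))
  have Lc := mem_L hQ (XQ hc) ((sf hs hy').symm ▸ hQ.sq_mem (XQ hc))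
  have RL : R ≤ Q ⊓ CM {y'} (zpowers z) := fun r hr =>
    mem_L hQ (XQ (RX hr)) ((cm_one (yr y' hy' r hr).symm).symm ▸ one_mem _)
  by_contra hne
  have hba := mul_mem hb' ha
  have pba : p (cm t y' * cm t y) = p (cm s y) * p (cm t y) := by rw [pm hb' ha, e2]
  have n1 : p (cm s y') ≠ 1 := fun e => yQ (is y' hy' ((p1 hc).1 e))
  have n2 : p (cm t y') ≠ p (cm s y') := fun e =>
    yQ (its y' hy' ((p1 (all _ (mul_mem ht hs) y' hy')).1 (by rw [tl hy', e, pp hc])))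
  have n3 : p (cm t y) ≠ p (cm s y') := fun e => by
    have hyy := mul_mem hy hy'
    have k1 := its _ hyy ((p1 (all _ (mul_mem ht hs) _ hyy)).1 (by
      rw [tl hyy, tr hs hy hy', tr ht hy hy', ← e, ← e2, mul_assoc, ← mul_assoc (p (cm t y)), pp ha,
        one_mul, pp hb]))
    have k2 := (p1 (all t ht _ hyy)).2 (inQ ht k1)
    rw [tr ht hy hy', ← e2] at k2
    exact nab (mul_eq_one_comm.1 k2)
  have n4 : p (cm t y' * cm t y) ≠ p (cm s y') := fun e => hne (by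
    rw [← sf hs hy', ← nf hba hc hy' e, nl hb' ha hy', P1, sf ht hy', ← qf hb hb' e2, bb])
  have n5 : p (cm t y) ≠ p (cm t y') := fun e => nab (by rw [e, e2, pp hb'])
  have n6 : p (cm t y) ≠ p (cm t y' * cm t y) := fun e => nb (by rw [pba] at e; simpa using e)
  have n7 : p (cm t y') ≠ p (cm t y' * cm t y) := fun e => na (by
    rw [pm hb' ha] at e; simpa using e)
  have o : ∀ {a : G}, a ∈ X → p a ≠ 1 → (1 : G)⁻¹ * a ∉ R := fun ha h e =>
    h ((p1 ha).2 (by simpa using e))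
  have k := cosets RL ![1, cm t y, cm t y', cm t y' * cm t y, cm s y']
    (by
      intro i
      fin_cases i
      exacts [one_mem _, La, Lb, mul_mem Lb La, Lc])
    (by
      intro i j h
      fin_cases i <;> fin_cases j <;> first | exact absurd h (by decide) | skip
      exacts [o ha na, o hb' (e2 ▸ nb), o hba (pba ▸ nab), o hc n1, mt (pe ha hb').2 n5,
        mt (pe ha hba).2 n6, mt (pe ha hc).2 n3, mt (pe hb' hba).2 n7, mt (pe hb' hc).2 n2,
        mt (pe hba hc).2 n4])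
  rw [cL y' hy' yQ] at k
  have := Nat.card_pos (α := R)
  omega

theorem xsG2 (H : XsHStmt.{u}) : XsG2Stmt.{u} := by
  intro G _ _ Q Q' z X Y c r hQ
  have zY : z ∈ Y := c.hY ▸ ⟨c.xs'.mem, le_normalizer c.xs.mem⟩
  have zR : z ∈ RR Q Y := ⟨⟨c.xs.mem, zY⟩, fun g hg => c.xs.cen g hg.1⟩
  have RQ : RR Q Y ≤ Q := fun _ h => h.1.1
  have YQ : Y ≤ Q' := c.hY ▸ inf_le_left
  have YN : Y ≤ NN Q := c.hY ▸ inf_le_right
  have XQ : X ≤ Q := c.hX ▸ inf_le_left
  have hH := fun y (hy : y ∈ Y) => H G Q z y c.xs (YN hy) (c.xs'.le_centralizer (YQ hy))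
    (c.xs.Z_le (c.xs'.sq_mem (YQ hy)))
  have h1 := c.xs.card_mul_card_centralizer_of_mem RQ zR
  rw [← r.xr, hQ] at h1
  have h2 : Nat.card X < 2 ^ 9 := by
    by_contra h
    exact c.nx (eq_of_le_of_card_ge XQ (by omega)).ge
  obtain ⟨y0, hy0, y0Q⟩ := SetLike.not_le_iff_exists.1 c.ny
  have h3 := (hH y0 hy0).1
  have h4 := r.rk y0 hy0 y0Q
  rw [hQ] at h3 h4
  have h5 : 32 ≤ Nat.card ↥(Q ⊓ CM {y0} (zpowers z)) := by
    by_contra h
    have := Nat.pow_le_pow_left (show Nat.card ↥(Q ⊓ CM {y0} (zpowers z)) ≤ 31 by omega) 2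
    omega
  have h6 : Nat.card (RR Q Y) ≤ 8 := by
    by_contra h
    have := Nat.mul_le_mul h5 (Nat.pow_le_pow_left (show 9 ≤ Nat.card (RR Q Y) by omega) 2)
    omega
  have h7 : Nat.card (RR Q Y) = 4 ∨ Nat.card (RR Q Y) = 8 := by
    generalize Nat.card (RR Q Y) = k at h1 h6
    interval_cases k <;> omega
  refine h7.resolve_right fun h8 => ?_
  have cL : ∀ y ∈ Y, y ∉ Q → Nat.card ↥(Q ⊓ CM {y} (zpowers z)) = 32 := fun y hy yQ => by
    have := r.rk y hy yQ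
    rw [hQ, h8] at this
    omega
  have hD : RR Q Y = Q ⊓ Y := by
    have k1 := (hH y0 hy0).2.2 (by rw [hQ, cL y0 hy0 y0Q]; norm_num)
    have k2 : Q ⊓ Y ≤ Q ⊓ CM {y0} (zpowers z) := fun d hd =>
      mem_L c.xs hd.1 (c.xs'.commutator_mem (YQ hd.2) (YQ hy0))
    exact inf_eq_left.2 fun d hd e he => k1 (k2 hd) e (k2 he)
  have hX : X = Q ⊓ CC (Q ⊓ Y) := by rw [← hD]; exact r.xr
  have RX : RR Q Y ≤ X := fun d hd => hX ▸ ⟨hd.1.1, hd.2⟩
  obtain ⟨t, ht, tX⟩ := SetLike.not_le_iff_exists.1 c.nx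
  obtain ⟨s, hs, sX, tsX⟩ : ∃ s ∈ Q, s ∉ X ∧ t⁻¹ * s ∉ X := by
    by_contra h
    push Not at h
    have := cover XQ ![1, t] (by intro i; fin_cases i; exacts [one_mem _, ht]) fun x hx => by
      by_cases e : x ∈ X
      · exact ⟨0, by simpa using e⟩
      · exact ⟨1, h x hx e⟩
    rw [h8] at h1
    omega
  have tsX' : t * s ∉ X := fun e => tsX (by
    have := mul_mem (inv_mem (RX (zpowers_le.2 zR (c.xs.sq_mem ht)))) e
    rwa [show (t * t)⁻¹ * (t * s) = t⁻¹ * s by group] at this)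
  have k := key c.xs c.xs' YQ XQ zR RX (fun x hx => (r.xr.le hx).2) (fun y hy => r.yr hy) r.re r.cm
    c.all ht hs (fun y hy e => c.inj t ht tX y hy e.1.2) (fun y hy e => c.inj s hs sX y hy e.1.2)
    (fun y hy e => c.inj _ (mul_mem ht hs) tsX' y hy e.1.2)
    (fun x hx => r.on s hs sX x (hX ▸ hx))
    (fun y hy => ((hH y hy).2.1 s hs).2 _ ((hH y hy).2.1 t ht).1)
    (fun y hy yQ => by rw [cL y hy yQ, h8])
  refine r.nd (hX ▸ fun x hx => ?_)
  rw [← c.xs.centralizer_centralizer RQ zR, ← r.xr]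
  refine ⟨XQ hx, fun w hw => ?_⟩
  have e := k _ (mul_mem hw hx)
  rw [← inv_eq_of_mul_eq_one_right e, mul_inv_rev, inv_eq_of_mul_eq_one_right (k x hx),
    inv_eq_of_mul_eq_one_right (k w hw)]

end Cfsg.Agent.H84.RfXsG2
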